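import Cfsg.Agent.H14.RG3

/-! The quotient `N / H` as a Coxeter group. -/

set_option autoImplicit false

namespace Cfsg.Agent.H14

variable {ι Φ : Type} [Fintype ι] [DecidableEq ι]

namespace RG

variable {R : RS ι Φ} {K : Type*} [Field K] {G : Type*} [Group G] (X : RG R K G)

theorem exists_hom_coxeter {κ : Type*} (e : κ ≃ ι) (M : CoxeterMatrix κ)
    (hM : ∀ i j, i ≠ j → CoxChk (R.car (e i) (e j)) (R.car (e j) (e i)) (M i j)) :
    ∃ φ : X.N →* M.Group, Function.Surjective φ ∧ φ.ker = X.H.subgroupOf X.N ∧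
      ∀ (i : κ) (g : X.N), (g : G) = X.n (R.simple (e i)) 1 → φ g = M.simple i := by
  obtain ⟨cs, hcs⟩ := ((H15.BN.ex X.bnG).reindex (e.trans (X.subG.sEquiv X.subG_top))).exists_coxeterSystem M
    (X.subG.orderOf_sW_eq _ e M hM)
  let ψ : X.N →* X.bnG.N := MonoidHom.codRestrict (Subgroup.inclusion X.N_le_grp) _ fun g => by
    rw [bn_N, sub_N]; exact g.2
  have hψ : Function.Surjective ψ := fun g => ⟨⟨g, (X.sub_hom _ _).mem_N g.2⟩, rfl⟩
  refine ⟨cs.mulEquiv.toMonoidHom.comp ((QuotientGroup.mk' _).comp ψ),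
    cs.mulEquiv.surjective.comp ((QuotientGroup.mk'_surjective _).comp hψ), ?_, fun i g hg => ?_⟩
  · ext g
    rw [MonoidHom.mem_ker, MonoidHom.comp_apply, MulEquiv.coe_toMonoidHom, map_eq_one_iff _ cs.mulEquiv.injective,
      MonoidHom.comp_apply, QuotientGroup.mk'_apply, H15.BN.mk_eq_one_iff, bn_B, sub_B]
    exact ⟨fun h => X.mem_H_of_mem_B_N h g.2, fun h => X.H_le_B h⟩
  · have : (QuotientGroup.mk' _) (ψ g) = cs.simple i := by
      rw [hcs]
      exact congrArg QuotientGroup.mk (Subtype.ext (Subtype.ext hg))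
    rw [MonoidHom.comp_apply, MonoidHom.comp_apply, this]
    exact cs.mulEquiv.apply_symm_apply _

end RG

end Cfsg.Agent.H14
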