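import Cfsg.Agent.H15.Weyl

/-! Centre and two-element generation of finite Weyl groups. -/

set_option autoImplicit false

namespace Cfsg.Agent.H14

open H15 H15.Geo

variable {n : ℕ} {A : List (List ℤ)} {d : List ℤ} {Φ : List (List ℤ)} {M : ℕ → ℕ → ℕ} {N : CoxeterMatrix (Fin n)}

/-- the action of a word on a vector -/
def wact (A : List (List ℤ)) (l : List (Fin n)) (v : List ℤ) : List ℤ := l.foldr (fun i => rstep A i) v

lemma exists_φ (h : modelOK n A d Φ M = true) (hN : ∀ i j : Fin n, N i j = M i j) :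
    ∃ φ : N.Group →* ((Fin n → ℤ) ≃ₗ[ℤ] (Fin n → ℤ)), Function.Injective φ ∧ (∀ i, φ (N.simple i) = refl (modelOK_two h) i) ∧
      ∀ l v, List.ofFn (φ (List.map N.simple l).prod v) = wact A l (List.ofFn v) := by
  obtain ⟨φ, h1, h2⟩ := exists_rep_cox h hN N.toCoxeterSystem
  have e : ∀ i, (grp (modelOK_two h)).subtype.comp φ (N.simple i) = refl (modelOK_two h) i := fun i => congrArg Subtype.val (h2 i)
  refine ⟨_, Subtype.val_injective.comp h1, e, fun l v => ?_⟩
  induction l with
  | nil => simp [wact]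
  | cons a l ih => rw [List.map_cons, List.prod_cons, map_mul, LinearEquiv.mul_apply, e, ofFn_refl, ih]; rfl

theorem cox_gen (h : modelOK n A d Φ M = true) (hN : ∀ i j : Fin n, N i j = M i j) (T : List (Fin n)) (P : Fin n → List ℕ)
    (hc : decide (T.Nodup ∧ (∀ i j : Fin n, wact A [i] (unitL n i) = wact A [j] (unitL n i) → i = j) ∧ ∀ i k : Fin n,
      wact A ((P i).flatMap fun a => if a = 0 then List.finRange n else if a = 1 then (List.finRange n).reverse else (T[a - 2]?).toList)
        (unitL n k) = wact A [i] (unitL n k)) = true) :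
    ∃ S : Finset N.Group, S.card = T.length ∧ (∀ t ∈ S, ∃ (g : N.Group) (i : Fin n), t = g * N.simple i * g⁻¹) ∧
      Subgroup.closure (({((List.finRange n).map N.simple).prod} : Set N.Group) ∪ ↑S) = ⊤ := by
  classical
  obtain ⟨h1, h2, h3⟩ := of_decide_eq_true hc
  obtain ⟨φ, a1, -, a2⟩ := exists_φ h hN
  refine ⟨(T.map N.simple).toFinset, ?_, fun t ht => ?_, top_le_iff.1 ?_⟩
  · rw [List.toFinset_card_of_nodup (h1.map fun i j e => h2 i j ?_), List.length_map]
    rw [← ofFn_single, ← a2, ← a2, List.map_singleton, e, List.map_singleton]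
  · obtain ⟨i, -, rfl⟩ := List.mem_map.1 (List.mem_toFinset.1 ht)
    exact ⟨1, i, by simp⟩
  rw [← N.toCoxeterSystem.subgroup_closure_range_simple, Subgroup.closure_le]
  rintro _ ⟨i, rfl⟩
  have : N.toCoxeterSystem.simple i = (((P i).flatMap fun a => if a = 0 then List.finRange n else if a = 1 then
      (List.finRange n).reverse else (T[a - 2]?).toList).map N.simple).prod := a1 (LinearEquiv.toLinearMap_injective
    ((Pi.basisFun ℤ _).ext fun k => List.ofFn_injective (by
      simp only [Pi.basisFun_apply, LinearEquiv.coe_coe, a2, ofFn_single, h3]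
      rw [← ofFn_single, ← a2]; simp)))
  rw [this, List.map_flatMap, List.flatMap_def, List.prod_flatten, List.map_map]
  refine Subgroup.list_prod_mem _ fun g hg => ?_
  obtain ⟨a, -, rfl⟩ := List.mem_map.1 hg
  simp only [Function.comp]
  split_ifs
  · exact Subgroup.subset_closure (Or.inl rfl)
  · rw [show (List.map N.simple (List.finRange n).reverse).prod = ((List.finRange n).map N.simple).prod⁻¹ from
      N.toCoxeterSystem.wordProd_reverse _]
    exact inv_mem (Subgroup.subset_closure (Or.inl rfl))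
  · refine Subgroup.list_prod_mem _ fun g hg => Subgroup.subset_closure (Or.inr ?_)
    obtain ⟨i, hi, rfl⟩ := List.mem_map.1 hg
    simpa using ⟨i, List.mem_of_getElem? (by simpa using hi), rfl⟩

theorem cox_center {φ : N.Group →* ((Fin n → ℤ) ≃ₗ[ℤ] (Fin n → ℤ))} {h2 : ∀ i : Fin n, ent A i i = 2}
    (h : ∀ i, φ (N.simple i) = refl h2 i) (i₀ : Fin n) (dep : Fin n → ℕ) (hc : ∀ i, i = i₀ ∨ ∃ j, dep j < dep i ∧ ent A i j ≠ 0)
    {z : N.Group} (hz : z ∈ Subgroup.center N.Group) : φ z = 1 ∨ φ z = LinearEquiv.neg ℤ := by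
  have a0 : ∀ z ∈ Subgroup.center N.Group, ∀ i j : Fin n, φ z (Pi.single j 1) - ent A i j • φ z (Pi.single i 1) =
      φ z (Pi.single j 1) - cor n A i (φ z (Pi.single j 1)) • Pi.single i 1 := fun z hz i j => by
    have := LinearEquiv.congr_fun (congrArg φ (Subgroup.mem_center_iff.1 hz (N.simple i))) (Pi.single j 1)
    simpa only [map_mul, LinearEquiv.mul_apply, h, refl_apply, map_sub, map_smul, cor_single] using this.symm
  have a1 : ∀ z ∈ Subgroup.center N.Group, ∀ i, φ z (Pi.single i 1) = (φ z (Pi.single i 1) i) • Pi.single i 1 := fun z hz i => by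
    ext k
    have := congrFun (a0 z hz i i) k
    by_cases e : k = i
    · simp [e]
    · simpa [h2, e] using this
  have a2 : ∀ i, φ z (Pi.single i 1) i = φ z (Pi.single i₀ 1) i₀ := fun i => by
    induction' hd : dep i using Nat.strong_induction_on with m ih generalizing i
    rcases hc i with rfl | ⟨j, h3, h4⟩
    · rfl
    have := congrFun (a0 z hz i j) i
    rw [← ih _ (hd ▸ h3) j rfl]
    conv_rhs at this => rw [a1 z hz j]
    simp only [Pi.sub_apply, Pi.smul_apply, map_smul, cor_single, Pi.single_eq_same, smul_eq_mul, mul_one] at this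
    have e := congrFun (a1 z hz j) i
    simp only [Pi.smul_apply, smul_eq_mul] at e
    exact mul_left_cancel₀ h4 (by linarith)
  have a3 : φ z (Pi.single i₀ 1) i₀ * φ z⁻¹ (Pi.single i₀ 1) i₀ = 1 := by
    have := congrFun (LinearEquiv.congr_fun (congrArg φ (inv_mul_cancel z)) (Pi.single i₀ 1)) i₀
    rwa [map_mul, LinearEquiv.mul_apply, a1 z hz, map_smul, map_one, Pi.smul_apply, smul_eq_mul, LinearEquiv.coe_one, id,
      Pi.single_eq_same] at this
  refine (Int.eq_one_or_neg_one_of_mul_eq_one a3).imp (fun e => ?_) fun e => ?_ <;>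
    exact LinearEquiv.toLinearMap_injective ((Pi.basisFun ℤ _).ext fun k => by
      rw [Pi.basisFun_apply, LinearEquiv.coe_coe, a1 z hz, a2, e]; simp)

theorem cox_center_two (h : modelOK n A d Φ M = true) (hN : ∀ i j : Fin n, N i j = M i j) (i₀ : Fin n) (dep : Fin n → ℕ) (m : ℕ)
    (hc : decide ((∀ i, i = i₀ ∨ ∃ j, dep j < dep i ∧ ent A i j ≠ 0) ∧ ∀ k : Fin n,
      wact A (List.replicate m (List.finRange n)).flatten (unitL n k) = (unitL n k).map (- ·)) = true) :
    Nat.card (Subgroup.center N.Group) = 2 ∧ Subgroup.center N.Group ≤ Subgroup.zpowers ((List.finRange n).map N.simple).prod := by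
  obtain ⟨h1, h2⟩ := of_decide_eq_true hc
  obtain ⟨φ, a1, a2, a3⟩ := exists_φ h hN
  obtain ⟨c, hc⟩ : ∃ c, c = ((List.finRange n).map N.simple).prod := ⟨_, rfl⟩
  have a4 : φ (c ^ m) = LinearEquiv.neg ℤ := LinearEquiv.toLinearMap_injective ((Pi.basisFun ℤ _).ext fun k => List.ofFn_injective (by
    have := a3 (List.replicate m (List.finRange n)).flatten (Pi.single k 1)
    rw [ofFn_single, h2, ← ofFn_single, List.map_ofFn] at this
    simpa [← hc, Function.comp_def, Pi.neg_def] using this))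
  have a5 : ∀ z, z ∈ Subgroup.center N.Group ↔ z = 1 ∨ z = c ^ m := fun z =>
    ⟨fun hz => (cox_center a2 i₀ dep h1 hz).imp (fun e => a1 (by simpa using e)) fun e => a1 (e.trans a4.symm), by
      rintro (rfl | rfl)
      · exact one_mem _
      · exact Subgroup.mem_center_iff.2 fun g => a1 (by ext; simp [a4])⟩
  refine ⟨?_, fun z hz => ?_⟩
  · rw [← SetLike.coe_sort_coe, show (Subgroup.center N.Group : Set N.Group) = {1, c ^ m} from Set.ext a5, Nat.card_coe_set_eq]
    refine Set.ncard_pair fun e => ?_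
    simpa [← e] using congrFun (LinearEquiv.congr_fun a4 (Pi.single i₀ 1)) i₀
  · rcases (a5 z).1 hz with rfl | rfl
    exacts [one_mem _, hc ▸ Subgroup.npow_mem_zpowers _ _]

theorem center_E6 : Subgroup.center CoxeterMatrix.E₆.Group = ⊥ := by
  obtain ⟨φ, a1, a2, -⟩ := exists_φ Weyl.modelE6 Weyl.matE6
  refine eq_bot_iff.2 fun z hz => (cox_center a2 0 ![0, 3, 1, 2, 3, 4] (by decide +kernel) hz).elim
    (fun e => a1 (by simpa using e)) fun e => absurd ?_ (by decide : ¬ (3 : ℤ) ∣ -1 - 1)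
  have : ∀ w, ∀ k, (3 : ℤ) ∣ φ w ![1, 0, 2, 0, 1, 2] k - ![1, 0, 2, 0, 1, 2] k := fun w => by
    refine CoxeterMatrix.E₆.toCoxeterSystem.simple_induction_left
      (p := fun w => ∀ k, (3 : ℤ) ∣ φ w ![1, 0, 2, 0, 1, 2] k - ![1, 0, 2, 0, 1, 2] k) w (fun k => by simp) fun w i ih k => ?_
    obtain ⟨u, hu⟩ : ∃ u : Fin 6 → ℤ, φ w ![1, 0, 2, 0, 1, 2] = ![1, 0, 2, 0, 1, 2] + (3 : ℤ) • u :=
      ⟨fun k => (ih k).choose, funext fun k => by simp [← (ih k).choose_spec]⟩
    have b : ∀ i k, (3 : ℤ) ∣ refl (modelOK_two Weyl.modelE6) i ![1, 0, 2, 0, 1, 2] k - ![1, 0, 2, 0, 1, 2] k := by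
      simp only [refl_apply, cor_apply]; decide +kernel
    rw [map_mul, LinearEquiv.mul_apply, hu, show φ (CoxeterMatrix.E₆.toCoxeterSystem.simple i) = _ from a2 i, map_add, map_smul,
      Pi.add_apply, add_sub_right_comm]
    exact dvd_add (b i k) ⟨_, rfl⟩
  simpa [e] using this z 0

end Cfsg.Agent.H14
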