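import Cfsg.Agent.H14.GrpD

/-! Generation by the monomial subgroup and root subgroups. -/

set_option autoImplicit false

namespace Cfsg.Agent.H14

open Cfsg.Lie Cfsg.Lie.ChevalleyDatum

variable {D : ChevalleyDatum} (G : Good D) {K : Type*} [Field K] {M : Subgroup (GL D.Idx K)}

lemma Good.x_mem_of_isLong (hc : G.R.Conn) (hN : (G.rg K).N ≤ M) {r s : Fin D.nroots} (h : D.isLong r = D.isLong s)
    (hr : ∀ t, (G.rg K).x r t ∈ M) (t : K) : (G.rg K).x s t ∈ M := by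
  obtain ⟨w, hw, rfl⟩ := G.R.exists_W_of_len hc (G.len_eq_of_isLong_eq hc h)
  obtain ⟨g, hg, h⟩ := (G.rg K).exists_rep_of_W hw
  obtain ⟨c, hc⟩ := h.conj_x r
  have := mul_mem (mul_mem (hN hg) (hr ((c⁻¹ : Kˣ) * t))) (inv_mem (hN hg))
  rwa [hc, Units.mul_inv_cancel_left] at this

lemma Good.le_of_two (hc : G.R.Conn) (hN : (G.rg K).N ≤ M) {r s : Fin D.nroots} (h : D.isLong r = false) (h' : D.isLong s = true)
    (hr : ∀ t, (G.rg K).x r t ∈ M) (hs : ∀ t, (G.rg K).x s t ∈ M) : D.group K ≤ M :=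
  G.grp_eq K ▸ (G.rg K).gen_le.2 fun k _ => by
    rcases hk : D.isLong k
    exacts [G.x_mem_of_isLong hc hN (h.trans hk.symm) hr, G.x_mem_of_isLong hc hN (h'.trans hk.symm) hs]

lemma Good.le_of_short (hc : G.R.Conn) (hN : (G.rg K).N ≤ M) {r : Fin D.nroots} (h : D.isLong r = false)
    (hr : ∀ t, (G.rg K).x r t ∈ M) {a b k : ℕ} {c : ℤ} (h1 : (c : K) ≠ 0) (h2 : decide (a < D.nroots ∧ b < D.nroots ∧ k < D.nroots ∧
      b ≠ a ∧ b ≠ D.neg a ∧ D.isLong a = false ∧ D.isLong b = false ∧ D.isLong k = true ∧ D.commTerms a b = [(k, c, 1, 1)]) = true) :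
    D.group K ≤ M := by
  obtain ⟨ha, hb, hk, a1, a2, a3, a4, a5, a6⟩ := of_decide_eq_true h2
  lift a to Fin D.nroots using ha
  lift b to Fin D.nroots using hb
  lift k to Fin D.nroots using hk
  refine G.le_of_two hc hN h a5 hr fun t => ?_
  have e := G.chev_rg (K := K) a b (fun h => a1 (congrArg _ h)) (fun h => a2 (G.val_eq_neg_iff.2 h)) (-1) (t / c)
  have b1 := G.x_mem_of_isLong hc hN (h.trans a3.symm) hr
  have b2 := G.x_mem_of_isLong hc hN (h.trans a4.symm) hr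
  have := mul_mem (b2 (t / c)) (b1 (-1))
  rw [e, mul_mem_cancel_left (mul_mem (b1 _) (b2 _))] at this
  simpa [commWord, a6, mul_div_cancel₀, h1] using this

end Cfsg.Agent.H14
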