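import Mathlib
import Cfsg.Prelude.Def_SporadicCombinatorics

/-!
# The hexacode: weights and monomial automorphisms
-/

set_option autoImplicit false
set_option linter.style.haveILetI false

namespace Cfsg.Agent.H14.Hexa

open Equiv

/-- The field with four elements. -/
abbrev Q4 : Type := QuadraticAlgebra (ZMod 2) 1 1

instance factQ4 : Fact (∀ r : ZMod 2, r ^ 2 ≠ 1 + 1 * r) := ⟨by decide⟩

instance finQ4 : Fintype Q4 := Fintype.ofEquiv _ (QuadraticAlgebra.equivProd (1 : ZMod 2) 1).symm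

theorem card_Q4 : Fintype.card Q4 = 4 := by rw [Fintype.ofEquiv_card]; rfl

/-- The generator of `Q4`. -/
def w : Q4 := ⟨0, 1⟩

/-- Parity checks. -/
def Mem {F : Type*} [Field F] (ω : F) (x : Fin 6 → F) : Prop :=
  x 3 = x 0 + x 1 + x 2 ∧ x 4 = ω ^ 2 * x 0 + ω * x 1 + x 2 ∧ x 5 = ω * x 0 + ω ^ 2 * x 1 + x 2

instance (x : Fin 6 → Q4) : Decidable (Mem w x) := by unfold Mem; infer_instance

/-- The word with given first three coordinates. -/
def word {F : Type*} [Field F] (ω : F) (t : F × F × F) : Fin 6 → F :=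
  ![t.1, t.2.1, t.2.2, t.1 + t.2.1 + t.2.2, ω ^ 2 * t.1 + ω * t.2.1 + t.2.2,
    ω * t.1 + ω ^ 2 * t.2.1 + t.2.2]

section
variable {F : Type*} [Field F] {ω : F}

theorem mem_word (t : F × F × F) : Mem ω (word ω t) := ⟨rfl, rfl, rfl⟩

theorem Mem.eq_word {x : Fin 6 → F} (h : Mem ω x) : x = word ω (x 0, x 1, x 2) := by
  funext i
  fin_cases i
  · rfl
  · rfl
  · rfl
  · exact h.1
  · exact h.2.1
  · exact h.2.2

theorem word_inj : Function.Injective (word ω) := by
  intro t u h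
  have h0 := congrFun h 0
  have h1 := congrFun h 1
  have h2 := congrFun h 2
  exact Prod.ext h0 (Prod.ext h1 h2)

theorem mem_iff (h2 : (2 : F) = 0) (hω : ω ^ 2 + ω + 1 = 0) (x : Fin 6 → F) :
    x ∈ hexacode F ω ↔ Mem ω x := by
  constructor
  · intro hx
    induction hx using Submodule.span_induction with
    | mem y hy =>
      simp only [Set.mem_insert_iff, Set.mem_singleton_iff] at hy
      rcases hy with rfl | rfl | rfl
      · refine ⟨?_, ?_, ?_⟩
        · show ω = ω + ω ^ 2 + ω ^ 2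
          linear_combination (-ω ^ 2) * h2
        · show ω ^ 2 = ω ^ 2 * ω + ω * ω ^ 2 + ω ^ 2
          linear_combination (-ω ^ 3) * h2
        · show ω = ω * ω + ω ^ 2 * ω ^ 2 + ω ^ 2
          linear_combination (-ω ^ 2) * h2 - (ω ^ 2 - ω) * hω
      · refine ⟨?_, ?_, ?_⟩
        · show ω ^ 2 = ω ^ 2 + ω + ω
          linear_combination (-ω) * h2
        · show ω ^ 2 = ω ^ 2 * ω ^ 2 + ω * ω + ω
          linear_combination (-ω) * h2 - (ω ^ 2 - ω) * hω
        · show ω = ω * ω ^ 2 + ω ^ 2 * ω + ω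
          linear_combination (-ω ^ 3) * h2
      · refine ⟨?_, ?_, ?_⟩
        · show ω = ω ^ 2 + ω + ω ^ 2
          linear_combination (-ω ^ 2) * h2
        · show ω = ω ^ 2 * ω ^ 2 + ω * ω + ω ^ 2
          linear_combination (-ω ^ 2) * h2 - (ω ^ 2 - ω) * hω
        · show ω ^ 2 = ω * ω ^ 2 + ω ^ 2 * ω + ω ^ 2
          linear_combination (-ω ^ 3) * h2
    | zero => exact ⟨by simp, by simp, by simp⟩
    | add y z _ _ hy hz =>
      refine ⟨?_, ?_, ?_⟩
      · simp only [Pi.add_apply]; linear_combination hy.1 + hz.1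
      · simp only [Pi.add_apply]; linear_combination hy.2.1 + hz.2.1
      · simp only [Pi.add_apply]; linear_combination hy.2.2 + hz.2.2
    | smul a y _ hy =>
      refine ⟨?_, ?_, ?_⟩
      · simp only [Pi.smul_apply, smul_eq_mul]; linear_combination a * hy.1
      · simp only [Pi.smul_apply, smul_eq_mul]; linear_combination a * hy.2.1
      · simp only [Pi.smul_apply, smul_eq_mul]; linear_combination a * hy.2.2
  · intro hx
    set v1 : Fin 6 → F := ![ω, ω ^ 2, ω ^ 2, ω, ω ^ 2, ω] with hv1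
    set v2 : Fin 6 → F := ![ω ^ 2, ω, ω, ω ^ 2, ω ^ 2, ω] with hv2
    set v3 : Fin 6 → F := ![ω ^ 2, ω, ω ^ 2, ω, ω, ω ^ 2] with hv3
    have m1 : v1 ∈ hexacode F ω := Submodule.subset_span (by simp [hv1])
    have m2 : v2 ∈ hexacode F ω := Submodule.subset_span (by simp [hv2])
    have m3 : v3 ∈ hexacode F ω := Submodule.subset_span (by simp [hv3])
    have h3 : ω ^ 3 = 1 := by linear_combination (ω - 1) * hω
    have e : x = (x 0 * ω + x 1 * ω ^ 2) • v1 + (x 0 * ω ^ 2 + x 1 * ω ^ 2 + x 2) • v2 +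
        (x 1 + x 2) • v3 := by
      rw [hx.eq_word]
      funext i
      fin_cases i <;>
        simp only [word, hv1, hv2, hv3, Pi.add_apply, Pi.smul_apply, smul_eq_mul] <;>
        simp <;> grind
    rw [e]
    exact add_mem (add_mem (Submodule.smul_mem _ _ m1) (Submodule.smul_mem _ _ m2))
      (Submodule.smul_mem _ _ m3)

theorem two_eq [Fintype F] (hF : Fintype.card F = 4) : (2 : F) = 0 := by
  have h : ((Fintype.card F : ℕ) : F) = 0 := FiniteField.cast_card_eq_zero F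
  rw [hF] at h
  have : (2 : F) * 2 = 0 := by rw [← h]; norm_num
  exact mul_self_eq_zero.1 this

theorem exists_equiv [Fintype F] (hF : Fintype.card F = 4) (hω : ω ^ 2 + ω + 1 = 0) :
    ∃ φ : Q4 ≃+* F, φ w = ω := by
  have h2 := two_eq hF
  haveI : CharP F 2 := CharTwo.of_one_ne_zero_of_two_eq_zero one_ne_zero h2
  letI : Algebra (ZMod 2) F := ZMod.algebra F 2
  let f : Q4 →ₐ[ZMod 2] F := QuadraticAlgebra.lift ⟨ω, by
    simp only [one_smul]; linear_combination hω - (ω + 1) * h2⟩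
  have hf : Function.Bijective f := by
    rw [Fintype.bijective_iff_injective_and_card]
    exact ⟨f.toRingHom.injective, by rw [card_Q4, hF]⟩
  refine ⟨RingEquiv.ofBijective f.toRingHom hf, ?_⟩
  show (0 : ZMod 2) • (1 : F) + (1 : ZMod 2) • ω = ω
  simp

theorem mem_comp (φ : Q4 ≃+* F) (hφ : φ w = ω) (y : Fin 6 → Q4) :
    Mem ω (fun i => φ (y i)) ↔ Mem w y := by
  simp only [Mem, ← hφ, ← map_pow, ← map_mul, ← map_add, φ.injective.eq_iff]

theorem word_comp (φ : Q4 ≃+* F) (hφ : φ w = ω) (t : Q4 × Q4 × Q4) :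
    word ω (φ t.1, φ t.2.1, φ t.2.2) = fun i => φ (word w t i) := by
  funext i
  fin_cases i <;> simp [word, hφ]

end

/-- Weight. -/
def wt {F : Type*} [Field F] [DecidableEq F] (x : Fin 6 → F) : ℕ :=
  (Finset.univ.filter fun i => x i ≠ 0).card

theorem wt_word : ∀ t : Q4 × Q4 × Q4, t = 0 ∨ wt (word w t) = 4 ∨ wt (word w t) = 6 := by
  decide +kernel

theorem card_wt4 : (Finset.univ.filter fun t : Q4 × Q4 × Q4 => wt (word w t) = 4).card = 45 := by
  decide +kernel

theorem card_wt6 : (Finset.univ.filter fun t : Q4 × Q4 × Q4 => wt (word w t) = 6).card = 18 := by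
  decide +kernel

section
variable {F : Type*} [Field F] [DecidableEq F] {ω : F}

theorem wt_comp (φ : Q4 ≃+* F) (y : Fin 6 → Q4) : wt (fun i => φ (y i)) = wt y := by
  simp only [wt, ne_eq, map_eq_zero]

theorem ncard_wt (h2 : (2 : F) = 0) (hω : ω ^ 2 + ω + 1 = 0) (φ : Q4 ≃+* F) (hφ : φ w = ω)
    (n : ℕ) : {x : Fin 6 → F | x ∈ hexacode F ω ∧ wt x = n}.ncard =
      (Finset.univ.filter fun t : Q4 × Q4 × Q4 => wt (word w t) = n).card := by
  rw [← Set.ncard_coe_finset]
  have hi : Function.Injective (fun t : Q4 × Q4 × Q4 => fun i => φ (word w t i)) := by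
    intro t u h
    apply word_inj (ω := w)
    funext i
    exact φ.injective (congrFun h i)
  rw [← Set.ncard_image_of_injective _ hi]
  congr 1
  ext x
  simp only [Set.mem_ofPred_eq, mem_iff h2 hω, Set.mem_image, Finset.coe_filter, Finset.mem_univ,
    true_and]
  constructor
  · rintro ⟨hx, hn⟩
    have e : (fun i => φ (word w (φ.symm (x 0), φ.symm (x 1), φ.symm (x 2)) i)) = x := by
      rw [← word_comp φ hφ]
      simp only [RingEquiv.apply_symm_apply]
      exact hx.eq_word.symm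
    refine ⟨_, ?_, e⟩
    rw [← wt_comp φ, e, hn]
  · rintro ⟨t, ht, rfl⟩
    exact ⟨(mem_comp φ hφ _).2 (mem_word t), by rw [wt_comp, ht]⟩

end

/-- Preservation on the three basis words. -/
def Ok (σ : Fin 6 → Fin 6) (c : Fin 6 → Q4) : Prop :=
  Mem w (fun i => c i * word w (1, 0, 0) (σ i)) ∧ Mem w (fun i => c i * word w (0, 1, 0) (σ i)) ∧
    Mem w (fun i => c i * word w (0, 0, 1) (σ i))

instance (σ : Fin 6 → Fin 6) (c : Fin 6 → Q4) : Decidable (Ok σ c) := by unfold Ok; infer_instance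

/-- The set of monomial maps preserving the hexacode. -/
def Pres {F : Type*} [Field F] (ω : F) (σ : Perm (Fin 6)) (c : Fin 6 → Fˣ) : Prop :=
  ∀ x ∈ hexacode F ω, monomialMap σ c x ∈ hexacode F ω

section
variable {F : Type*} [Field F] {ω : F}

theorem pres_iff (h2 : (2 : F) = 0) (hω : ω ^ 2 + ω + 1 = 0) (φ : Q4 ≃+* F) (hφ : φ w = ω)
    (σ : Perm (Fin 6)) (c : Fin 6 → Fˣ) :
    Pres ω σ c ↔ Ok σ.symm (fun i => φ.symm (c i)) := by
  have key : ∀ t : Q4 × Q4 × Q4, monomialMap σ c (fun i => φ (word w t i)) ∈ hexacode F ω ↔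
      Mem w (fun i => φ.symm (c i) * word w t (σ.symm i)) := by
    intro t
    rw [mem_iff h2 hω, ← mem_comp φ hφ]
    simp only [monomialMap, map_mul, RingEquiv.apply_symm_apply]
    rfl
  have hm : ∀ t : Q4 × Q4 × Q4, (fun i => φ (word w t i)) ∈ hexacode F ω := fun t =>
    (mem_iff h2 hω _).2 ((mem_comp φ hφ _).2 (mem_word t))
  constructor
  · intro h
    exact ⟨(key _).1 (h _ (hm _)), (key _).1 (h _ (hm _)), (key _).1 (h _ (hm _))⟩
  · rintro ⟨k1, k2, k3⟩ x hx
    have hx' := ((mem_iff h2 hω x).1 hx).eq_word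
    have e : monomialMap σ c x = x 0 • monomialMap σ c (fun i => φ (word w (1, 0, 0) i)) +
        x 1 • monomialMap σ c (fun i => φ (word w (0, 1, 0) i)) +
        x 2 • monomialMap σ c (fun i => φ (word w (0, 0, 1) i)) := by
      funext i
      simp only [monomialMap, Pi.add_apply, Pi.smul_apply, smul_eq_mul]
      generalize σ.symm i = j
      rw [congrFun hx' j]
      fin_cases j <;> simp [word, hφ] <;> ring
    rw [e]
    exact add_mem (add_mem (Submodule.smul_mem _ _ ((key _).2 k1))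
      (Submodule.smul_mem _ _ ((key _).2 k2))) (Submodule.smul_mem _ _ ((key _).2 k3))

theorem Pres.mul {σ τ : Perm (Fin 6)} {c d : Fin 6 → Fˣ} (h : Pres ω σ c) (k : Pres ω τ d) :
    Pres ω (σ * τ) (fun i => c i * d (σ.symm i)) := by
  intro x hx
  have := h _ (k x hx)
  convert this using 1
  funext i
  simp [monomialMap, mul_assoc, Perm.mul_def]

theorem pres_scalar (a : Fˣ) : Pres ω 1 (fun _ => a) := by
  intro x hx
  have : monomialMap 1 (fun _ => a) x = (a : F) • x := by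
    funext i; simp [monomialMap, Perm.one_def]
  rw [this]
  exact Submodule.smul_mem _ _ hx

end

theorem ok_id : ∀ a b c d e f : Q4, Ok id ![a, b, c, d, e, f] → a = 0 ∨
    (b = a ∧ c = a ∧ d = a ∧ e = a ∧ f = a) := by
  decide +kernel

theorem ok_swap : ∀ a b c d e f : Q4, Ok (swap 0 1) ![a, b, c, d, e, f] → a = 0 := by
  decide +kernel

/-- Encoding of the elements of `Q4`. -/
def q (n : ℕ) : Q4 := ⟨(n % 2 : ℕ), (n / 2 : ℕ)⟩

/-- Scalars for the three-cycles. -/
def cands : List (Fin 6 → Q4) :=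
  ([[1, 1, 1, 1, 2, 3], [1, 1, 1, 1, 3, 2], [1, 1, 2, 3, 1, 1], [1, 1, 3, 2, 1, 1],
    [1, 2, 1, 3, 2, 3], [1, 2, 2, 3, 1, 3], [1, 2, 3, 1, 3, 2], [1, 2, 3, 2, 3, 1],
    [1, 2, 3, 3, 3, 3], [1, 3, 1, 2, 2, 3], [1, 3, 2, 1, 3, 2], [1, 3, 2, 2, 2, 2],
    [1, 3, 2, 3, 1, 2], [1, 3, 3, 2, 2, 1]] : List (List ℕ)).map fun l i => q (l.getD i 0)

/-- A three-cycle is the permutation part of an automorphism. -/
def Ok3 (a b c : Fin 6) : Prop :=
  ∃ v ∈ cands, (∀ i, v i ≠ 0) ∧ Ok (fun i => swap b c (swap a b i)) v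

instance (a b c : Fin 6) : Decidable (Ok3 a b c) := by unfold Ok3; infer_instance

theorem ok_three : ∀ a b c : Fin 6, a ≠ b → b ≠ c → a ≠ c → Ok3 a b c := by
  decide +kernel

section
variable {F : Type*} [Field F] [Fintype F] {ω : F}

theorem vec_eta {α : Type*} (c : Fin 6 → α) : c = ![c 0, c 1, c 2, c 3, c 4, c 5] := by
  funext i; fin_cases i <;> rfl

theorem diag_const (hF : Fintype.card F = 4) (hω : ω ^ 2 + ω + 1 = 0) (c : Fin 6 → Fˣ)
    (h : Pres ω 1 c) (i j : Fin 6) : c i = c j := by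
  obtain ⟨φ, hφ⟩ := exists_equiv hF hω
  rw [pres_iff (two_eq hF) hω φ hφ, vec_eta (fun i => φ.symm (c i))] at h
  have k : ∀ i, c i = c 0 := by
    rcases ok_id _ _ _ _ _ _ h with h0 | ⟨h1, h2, h3, h4, h5⟩
    · simp at h0
    · intro i
      apply Units.ext
      apply φ.symm.injective
      fin_cases i
      exacts [rfl, h1, h2, h3, h4, h5]
  rw [k i, k j]

theorem pres_three (hF : Fintype.card F = 4) (hω : ω ^ 2 + ω + 1 = 0) (σ : Perm (Fin 6))
    (hσ : σ.IsThreeCycle) : ∃ c, Pres ω σ c := by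
  obtain ⟨φ, hφ⟩ := exists_equiv hF hω
  obtain ⟨a, ha⟩ : σ.support.Nonempty := by
    rw [← Finset.card_pos, hσ.card_support]; norm_num
  have hn := hσ.nodup_iff_mem_support.2 ha
  have e := hσ.eq_swap_mul_swap_iff_mem_support.2 ha
  simp only [List.nodup_cons, List.mem_cons, List.not_mem_nil, or_false, not_or] at hn
  obtain ⟨v, -, hv, hk⟩ := ok_three a (σ a) (σ (σ a)) hn.1.1 hn.2.1 hn.1.2
  refine ⟨fun i => Units.mk0 (φ (v i)) (by simpa using hv i), ?_⟩
  rw [pres_iff (two_eq hF) hω φ hφ]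
  have e2 : (σ.symm : Fin 6 → Fin 6) = fun i => swap (σ a) (σ (σ a)) (swap a (σ a) i) := by
    funext i
    conv_lhs => rw [e]
    simp [Perm.mul_def]
  rw [e2]
  simpa using hk

theorem pres_alt (hF : Fintype.card F = 4) (hω : ω ^ 2 + ω + 1 = 0) (σ : Perm (Fin 6))
    (hσ : σ ∈ alternatingGroup (Fin 6)) : ∃ c, Pres ω σ c := by
  rw [← Perm.closure_three_cycles_eq_alternating] at hσ
  induction hσ using Subgroup.closure_induction'' with
  | one => exact ⟨_, pres_scalar 1⟩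
  | mem x hx => exact pres_three hF hω x hx
  | inv_mem x hx => exact pres_three hF hω _ (Perm.IsThreeCycle.inv hx)
  | mul x y _ _ hx hy =>
    obtain ⟨_, h⟩ := hx
    obtain ⟨_, k⟩ := hy
    exact ⟨_, h.mul k⟩

theorem not_pres_swap (hF : Fintype.card F = 4) (hω : ω ^ 2 + ω + 1 = 0) (c : Fin 6 → Fˣ) :
    ¬ Pres ω (swap 0 1) c := by
  intro h
  obtain ⟨φ, hφ⟩ := exists_equiv hF hω
  rw [pres_iff (two_eq hF) hω φ hφ, vec_eta (fun i => φ.symm (c i))] at h
  have := ok_swap _ _ _ _ _ _ h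
  simp at this

theorem Pres.mem_alt (hF : Fintype.card F = 4) (hω : ω ^ 2 + ω + 1 = 0) {σ : Perm (Fin 6)}
    {c : Fin 6 → Fˣ} (h : Pres ω σ c) : σ ∈ alternatingGroup (Fin 6) := by
  by_contra hσ
  have hs : Perm.sign σ = -1 := by
    rcases Int.units_eq_one_or (Perm.sign σ) with h | h
    · exact absurd (Perm.mem_alternatingGroup.2 h) hσ
    · exact h
  obtain ⟨d, hd⟩ := pres_alt hF hω (swap 0 1 * σ⁻¹) (by
    rw [Perm.mem_alternatingGroup, map_mul, Perm.sign_swap (by decide), Perm.sign_inv, hs]; rfl)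
  have := hd.mul h
  rw [inv_mul_cancel_right] at this
  exact not_pres_swap hF hω _ this

theorem card_pres (hF : Fintype.card F = 4) (hω : ω ^ 2 + ω + 1 = 0) :
    Nat.card {f : Perm (Fin 6) × (Fin 6 → Fˣ) // Pres ω f.1 f.2} = 1080 := by
  classical
  choose c0 hc0 using fun σ : alternatingGroup (Fin 6) => pres_alt hF hω σ.1 σ.2
  let g : alternatingGroup (Fin 6) × Fˣ → {f : Perm (Fin 6) × (Fin 6 → Fˣ) // Pres ω f.1 f.2} :=
    fun p => ⟨(p.1.1, fun i => p.2 * c0 p.1 i), by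
      have := (pres_scalar (ω := ω) p.2).mul (hc0 p.1)
      rw [one_mul] at this
      exact this⟩
  have hg : Function.Bijective g := by
    constructor
    · rintro ⟨σ, a⟩ ⟨τ, b⟩ h
      have h1 : σ = τ := Subtype.ext (congrArg (fun z => z.1.1) h)
      subst h1
      have h2 := congrFun (congrArg (fun z => z.1.2) h) 0
      exact Prod.ext rfl (mul_right_cancel h2)
    · rintro ⟨⟨σ, c⟩, h⟩
      let s : alternatingGroup (Fin 6) := ⟨σ, h.mem_alt hF hω⟩
      have k1 := Pres.mul h (hc0 s⁻¹)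
      have k2 := Pres.mul (hc0 s) (hc0 s⁻¹)
      have e : σ * (s⁻¹).1 = 1 := mul_inv_cancel σ
      have e' : s.1 * (s⁻¹).1 = 1 := mul_inv_cancel σ
      rw [e] at k1
      rw [e'] at k2
      refine ⟨(s, c 0 / c0 s 0), Subtype.ext (Prod.ext rfl ?_)⟩
      funext i
      have a1 := diag_const hF hω _ k1 i 0
      have a2 := diag_const hF hω _ k2 i 0
      show c 0 / c0 s 0 * c0 s i = c i
      have a3 : c0 s i * c0 s⁻¹ (σ.symm i) = c0 s 0 * c0 s⁻¹ (σ.symm 0) := a2
      have a4 : c i * c0 s⁻¹ (σ.symm i) = c 0 * c0 s⁻¹ (σ.symm 0) := a1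
      rw [eq_mul_inv_of_mul_eq a4, eq_mul_inv_of_mul_eq a3]
      simp only [div_eq_mul_inv, mul_assoc, inv_mul_cancel_left]
  rw [← Nat.card_eq_of_bijective g hg, Nat.card_prod, Nat.card_units, Nat.card_eq_fintype_card (α := F),
    hF, Nat.card_eq_fintype_card, card_alternatingGroup]
  rfl

end

end Cfsg.Agent.H14.Hexa
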