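import Mathlib

/-!
# Semicontinuity of the rank of polynomial families of matrices
-/

set_option autoImplicit false

namespace Cfsg.Agent.H14.Hk

/-- polynomial functions on `ℂ` -/
noncomputable def PF : Subalgebra ℂ (ℂ → ℂ) := (Polynomial.aeval (fun x : ℂ => x)).range

lemma id_mem_PF : (fun x : ℂ => x) ∈ PF := ⟨Polynomial.X, by simp⟩

lemma const_mem_PF (c : ℂ) : (fun _ : ℂ => c) ∈ PF := PF.algebraMap_mem c

lemma PF_add {f g : ℂ → ℂ} (hf : f ∈ PF) (hg : g ∈ PF) : (fun x => f x + g x) ∈ PF := PF.add_mem hf hg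
lemma PF_sub {f g : ℂ → ℂ} (hf : f ∈ PF) (hg : g ∈ PF) : (fun x => f x - g x) ∈ PF := PF.sub_mem hf hg
lemma PF_mul {f g : ℂ → ℂ} (hf : f ∈ PF) (hg : g ∈ PF) : (fun x => f x * g x) ∈ PF := PF.mul_mem hf hg

lemma PF_sum {ι : Type*} (s : Finset ι) {f : ι → ℂ → ℂ} (h : ∀ i ∈ s, f i ∈ PF) :
    (fun x => ∑ i ∈ s, f i x) ∈ PF := by
  have := PF.sum_mem h
  rwa [show (∑ i ∈ s, f i) = fun x => ∑ i ∈ s, f i x from funext fun x => Finset.sum_apply _ _ _] at this

lemma PF_prod {ι : Type*} (s : Finset ι) {f : ι → ℂ → ℂ} (h : ∀ i ∈ s, f i ∈ PF) :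
    (fun x => ∏ i ∈ s, f i x) ∈ PF := by
  have := PF.prod_mem h
  rwa [show (∏ i ∈ s, f i) = fun x => ∏ i ∈ s, f i x from funext fun x => Finset.prod_apply _ _ _] at this

lemma PF_finite {f : ℂ → ℂ} (hf : f ∈ PF) {x₀ : ℂ} (h : f x₀ ≠ 0) : {x | f x = 0}.Finite := by
  obtain ⟨p, rfl⟩ := hf
  have e : ∀ x, (Polynomial.aeval (fun x : ℂ => x) p) x = p.eval x := fun x => by
    simp [Polynomial.aeval_fn_apply]
  have hp : p ≠ 0 := by
    rintro rfl
    simp at h
  refine (p.roots.toFinset.finite_toSet).subset fun x hx => ?_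
  have hx' : (Polynomial.aeval (fun x : ℂ => x) p) x = 0 := hx
  rw [e] at hx'
  simpa [hp] using hx'

lemma PF_det {n : Type*} [Fintype n] [DecidableEq n] {M : ℂ → Matrix n n ℂ} (h : ∀ i j, (fun x => M x i j) ∈ PF) :
    (fun x => (M x).det) ∈ PF := by
  simp only [Matrix.det_apply']
  exact PF_sum _ fun σ _ => PF_mul (const_mem_PF _) (PF_prod _ fun i _ => h _ _)

lemma PF_matmul {l m n : Type*} [Fintype m] {M : ℂ → Matrix l m ℂ} {N : ℂ → Matrix m n ℂ}
    (h : ∀ i j, (fun x => M x i j) ∈ PF) (h' : ∀ i j, (fun x => N x i j) ∈ PF) (i : l) (j : n) :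
    (fun x => (M x * N x) i j) ∈ PF := by
  simp only [Matrix.mul_apply]
  exact PF_sum _ fun k _ => PF_mul (h _ _) (h' _ _)

lemma exists_sandwich {m n : Type*} [Fintype m] [Fintype n] (M : Matrix m n ℂ) :
    ∃ (P : Matrix (Fin M.rank) m ℂ) (Q : Matrix n (Fin M.rank) ℂ), P * M * Q = 1 := by
  classical
  let f := Matrix.toLin' M
  let b : Module.Basis (Fin M.rank) ℂ (LinearMap.range f) := Module.finBasisOfFinrankEq ℂ _ (by
    rw [Matrix.rank, ← Matrix.toLin'_apply'])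
  obtain ⟨g, hg⟩ := (LinearMap.range f).subtype.exists_leftInverse_of_injective (LinearMap.range f).ker_subtype
  obtain ⟨k, hk⟩ := f.rangeRestrict.exists_rightInverse_of_surjective f.range_rangeRestrict
  refine ⟨LinearMap.toMatrix' (b.equivFun.toLinearMap ∘ₗ g), LinearMap.toMatrix' (k ∘ₗ b.equivFun.symm.toLinearMap), ?_⟩
  have hM : ∀ (P : Matrix (Fin M.rank) m ℂ) (Q : Matrix n (Fin M.rank) ℂ), P * M * Q = P * LinearMap.toMatrix' f * Q := by
    simp [f]
  rw [hM, ← LinearMap.toMatrix'_comp, ← LinearMap.toMatrix'_comp, ← LinearMap.toMatrix'_id]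
  congr 1
  refine LinearMap.ext fun v => ?_
  have h1 : ∀ y, g (f (k y)) = y := fun y => by
    have a1 : f (k y) = (LinearMap.range f).subtype (f.rangeRestrict (k y)) := rfl
    have a2 : f.rangeRestrict (k y) = y := LinearMap.congr_fun hk y
    rw [a1, a2]
    exact LinearMap.congr_fun hg y
  simp only [LinearMap.comp_apply, LinearEquiv.coe_coe, h1, LinearEquiv.apply_symm_apply, LinearMap.id_apply]

theorem rank_semi {m n : Type*} [Fintype m] [Fintype n] {M : ℂ → Matrix m n ℂ}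
    (h : ∀ i j, (fun x => M x i j) ∈ PF) (x₀ : ℂ) : {x | (M x).rank < (M x₀).rank}.Finite := by
  classical
  obtain ⟨P, Q, hPQ⟩ := exists_sandwich (M x₀)
  have h1 : (fun x => (P * M x * Q).det) ∈ PF :=
    PF_det (PF_matmul (PF_matmul (fun _ _ => const_mem_PF _) h) fun _ _ => const_mem_PF _)
  refine (PF_finite h1 (x₀ := x₀) (by simp [hPQ])).subset fun x hx => ?_
  by_contra hd
  have h2 : (P * M x * Q).rank = (M x₀).rank := by
    rw [Matrix.rank_of_isUnit _ ((Matrix.isUnit_iff_isUnit_det _).2 (Ne.isUnit hd)), Fintype.card_fin]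
  have h3 : (P * M x * Q).rank ≤ (M x).rank := (Matrix.rank_mul_le_left _ _).trans (Matrix.rank_mul_le_right _ _)
  have hx' : (M x).rank < (M x₀).rank := hx
  omega

theorem deform {m n k l : Type*} [Fintype m] [Fintype n] [Fintype k] [Fintype l] {A : ℂ → Matrix m n ℂ}
    {P : ℂ → Matrix k l ℂ} (hA : ∀ i j, (fun x => A x i j) ∈ PF) (hP : ∀ i j, (fun x => P x i j) ∈ PF) {N : ℕ}
    (hS : {x | (A x).rank + (P x).rank = N}.Infinite) {x y : ℂ} (hx : (A x).rank + (P x).rank = N)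
    (hy : (A y).rank + (P y).rank = N) : (P x).rank = (P y).rank := by
  obtain ⟨z, hz, hz'⟩ := hS.exists_notMem_finite
    (((rank_semi hA x).union (rank_semi hP x)).union ((rank_semi hA y).union (rank_semi hP y)))
  simp only [Set.mem_union, Set.mem_ofPred_eq, not_or, not_lt] at hz hz'
  omega

end Cfsg.Agent.H14.Hk
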