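import Cfsg.Agent.H14.Hk1
import Cfsg.Agent.H6.Alg
import Cfsg.Agent.H4.Char2

/-!
# The centre of the Hecke algebra `e ℂG e` and the Higman map
-/

set_option autoImplicit false
set_option linter.unusedSectionVars false

namespace Cfsg.Agent.H14.Hk
open MonoidAlgebra Cfsg Cfsg.Agent.H4 Cfsg.Agent.H6

section mats
variable {W : Type*} [Fintype W] [DecidableEq W]

/-- matrix of the commutator map -/
def Amat (c : W → W → W → ℂ) : Matrix (W × W) W ℂ := fun p v => c p.1 v p.2 - c v p.1 p.2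

/-- matrix of the Higman map -/
def Pmat (c : W → W → W → ℂ) (inv : W → W) (w₀ : W) : Matrix W W ℂ :=
  fun t v => ∑ w, (∏ w' ∈ Finset.univ.erase w, c (inv w') w' w₀) * ∑ r, c w v r * c r (inv w) t

lemma Amat_PF {c : ℂ → W → W → W → ℂ} (h : ∀ u v w, (fun x => c x u v w) ∈ PF) (p : W × W) (v : W) :
    (fun x => Amat (c x) p v) ∈ PF := PF_sub (h _ _ _) (h _ _ _)

lemma Pmat_PF {c : ℂ → W → W → W → ℂ} (h : ∀ u v w, (fun x => c x u v w) ∈ PF) (inv : W → W) (w₀ t v : W) :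
    (fun x => Pmat (c x) inv w₀ t v) ∈ PF :=
  PF_sum _ fun _ _ => PF_mul (PF_prod _ fun _ _ => h _ _ _) (PF_sum _ fun _ _ => PF_mul (h _ _ _) (h _ _ _))
end mats

/-- double coset data -/
structure DC (G W : Type*) [Group G] where
  B : Subgroup G
  cl : G → W
  surj : Function.Surjective cl
  cl_eq : ∀ g g', cl g = cl g' ↔ ∃ b ∈ B, ∃ b' ∈ B, g' = b * g * b'
  inv : W → W
  cl_inv : ∀ g, cl g⁻¹ = inv (cl g)

namespace DC
variable {G W : Type*} [Group G] [Fintype G] [Fintype W] [DecidableEq W] (D : DC G W)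

lemma cl_left {b : G} (hb : b ∈ D.B) (g : G) : D.cl (b * g) = D.cl g :=
  ((D.cl_eq _ _).2 ⟨b, hb, 1, one_mem _, by simp⟩).symm

lemma cl_right {b : G} (hb : b ∈ D.B) (g : G) : D.cl (g * b) = D.cl g :=
  ((D.cl_eq _ _).2 ⟨1, one_mem _, b, hb, by simp⟩).symm

lemma inv_inv (w : W) : D.inv (D.inv w) = w := by
  obtain ⟨g, rfl⟩ := D.surj w
  rw [← D.cl_inv, ← D.cl_inv, _root_.inv_inv]

open Classical in
/-- the idempotent of `B` -/
noncomputable def e : MonoidAlgebra ℂ G := (Nat.card D.B : ℂ)⁻¹ • ∑ b : D.B, single (b : G) 1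

lemma cardB_ne : (Nat.card D.B : ℂ) ≠ 0 := Nat.cast_ne_zero.2 Nat.card_pos.ne'

lemma e_mul_of {x : MonoidAlgebra ℂ G} (h : ∀ b ∈ D.B, single b 1 * x = x) : D.e * x = x := by
  classical
  rw [e, smul_mul_assoc, Finset.sum_mul, Finset.sum_congr rfl fun (b : D.B) _ => h b b.2, Finset.sum_const,
    Finset.card_univ, ← Nat.card_eq_fintype_card, ← Nat.cast_smul_eq_nsmul ℂ, smul_smul, inv_mul_cancel₀ D.cardB_ne,
    one_smul]

lemma mul_e_of {x : MonoidAlgebra ℂ G} (h : ∀ b ∈ D.B, x * single b 1 = x) : x * D.e = x := by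
  classical
  rw [e, mul_smul_comm, Finset.mul_sum, Finset.sum_congr rfl fun (b : D.B) _ => h b b.2, Finset.sum_const,
    Finset.card_univ, ← Nat.card_eq_fintype_card, ← Nat.cast_smul_eq_nsmul ℂ, smul_smul, inv_mul_cancel₀ D.cardB_ne,
    one_smul]

lemma single_mul_e {b : G} (hb : b ∈ D.B) : single b 1 * D.e = D.e := by
  classical
  rw [e, mul_smul_comm, Finset.mul_sum]
  congr 1
  exact Fintype.sum_equiv (Equiv.mulLeft (⟨b, hb⟩ : D.B)) _ _ fun x => by simp [single_mul_single]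

lemma e_mul_single {b : G} (hb : b ∈ D.B) : D.e * single b 1 = D.e := by
  classical
  rw [e, smul_mul_assoc, Finset.sum_mul]
  congr 1
  exact Fintype.sum_equiv (Equiv.mulRight (⟨b, hb⟩ : D.B)) _ _ fun x => by simp [single_mul_single]

lemma e_mul_e : D.e * D.e = D.e := D.e_mul_of fun _ hb => D.single_mul_e hb

/-- the standard basis of the Hecke algebra -/
noncomputable def a (w : W) : MonoidAlgebra ℂ G := D.e * single (D.surj w).choose 1 * D.e

lemma e_single_e (g : G) : D.e * single g 1 * D.e = D.a (D.cl g) := by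
  obtain ⟨b, hb, b', hb', h⟩ := (D.cl_eq _ _).1 (D.surj (D.cl g)).choose_spec
  conv_lhs => rw [h]
  have : (single (b * (D.surj (D.cl g)).choose * b') 1 : MonoidAlgebra ℂ G) =
      single b 1 * single (D.surj (D.cl g)).choose 1 * single b' 1 := by simp [single_mul_single]
  rw [this, ← mul_assoc, ← mul_assoc, D.e_mul_single hb, mul_assoc _ _ D.e, D.single_mul_e hb', a]

lemma e_mul_a (w : W) : D.e * D.a w = D.a w := by rw [a, ← mul_assoc, ← mul_assoc, D.e_mul_e]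

lemma a_mul_e (w : W) : D.a w * D.e = D.a w := by rw [a, mul_assoc _ D.e, D.e_mul_e]

lemma a_one : D.a (D.cl 1) = D.e := by
  rw [← D.e_single_e, ← one_def, mul_one, D.e_mul_e]

/-- size of a double coset -/
noncomputable def d (w : W) : ℕ := (Finset.univ.filter fun g => D.cl g = w).card

lemma d_ne (w : W) : (D.d w : ℂ) ≠ 0 := by
  obtain ⟨g, rfl⟩ := D.surj w
  exact Nat.cast_ne_zero.2 (Finset.card_ne_zero.2 ⟨g, by simp⟩)

lemma sum_cl {M : Type*} [AddCommMonoid M] [Module ℂ M] (F : W → M) :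
    ∑ g, F (D.cl g) = ∑ w, (D.d w : ℂ) • F w := by
  rw [← Finset.sum_fiberwise (s := Finset.univ) (g := D.cl)]
  refine Finset.sum_congr rfl fun w _ => ?_
  rw [Finset.sum_congr rfl (g := fun _ => F w) fun g hg => by rw [(Finset.mem_filter.1 hg).2], Finset.sum_const,
    Nat.cast_smul_eq_nsmul, d]

lemma sandwich (x : MonoidAlgebra ℂ G) : D.e * x * D.e = ∑ g, x.coeff g • D.a (D.cl g) := by
  conv_lhs => rw [eq_sum_smul_single x]
  simp only [Finset.mul_sum, Finset.sum_mul, mul_smul_comm, smul_mul_assoc, e_single_e]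

lemma coeff_a (w : W) (g : G) : (D.a w).coeff g = if D.cl g = w then (D.d w : ℂ)⁻¹ else 0 := by
  let S : MonoidAlgebra ℂ G := ofFun fun g => if D.cl g = w then 1 else 0
  have h1 : D.e * S = S := D.e_mul_of fun b hb => alg_ext fun g => by
    rw [coeff_single_mul_apply]
    simp [S, D.cl_left (inv_mem hb)]
  have h2 : S * D.e = S := D.mul_e_of fun b hb => alg_ext fun g => by
    rw [coeff_mul_single_apply]
    simp [S, D.cl_right (inv_mem hb)]
  have h3 : S = (D.d w : ℂ) • D.a w := by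
    conv_lhs => rw [← h2, ← h1, sandwich]
    simp only [S, coeff_ofFun]
    rw [D.sum_cl fun v => (if v = w then (1 : ℂ) else 0) • D.a v]
    simp
  have h4 : D.a w = (D.d w : ℂ)⁻¹ • S := by rw [h3, smul_smul, inv_mul_cancel₀ (D.d_ne w), one_smul]
  rw [h4, coeff_smul']
  simp [S]

/-- coordinates -/
noncomputable def ι : (W → ℂ) →ₗ[ℂ] MonoidAlgebra ℂ G := Fintype.linearCombination ℂ D.a

lemma ι_apply (z : W → ℂ) : D.ι z = ∑ w, z w • D.a w := by simp [ι, Fintype.linearCombination_apply]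

lemma coeff_ι (z : W → ℂ) (g : G) : (D.ι z).coeff g = z (D.cl g) * (D.d (D.cl g) : ℂ)⁻¹ := by
  rw [ι_apply, coeff_sum']
  simp only [coeff_smul', coeff_a]
  simp

lemma ι_inj : Function.Injective D.ι := by
  refine (injective_iff_map_eq_zero _).2 fun z hz => funext fun w => ?_
  obtain ⟨g, rfl⟩ := D.surj w
  have := D.coeff_ι z g
  rw [hz] at this
  simpa [D.d_ne] using this.symm

lemma e_mul_ι (z : W → ℂ) : D.e * D.ι z = D.ι z := by
  simp only [ι_apply, Finset.mul_sum, mul_smul_comm, e_mul_a]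

lemma ι_mul_e (z : W → ℂ) : D.ι z * D.e = D.ι z := by
  simp only [ι_apply, Finset.sum_mul, smul_mul_assoc, a_mul_e]

lemma exists_ι {x : MonoidAlgebra ℂ G} (h : D.e * x * D.e = x) : ∃ z, D.ι z = x := by
  have : x ∈ LinearMap.range D.ι := by
    rw [← h, sandwich]
    exact Submodule.sum_mem _ fun g _ => Submodule.smul_mem _ _ ⟨Pi.single (D.cl g) 1, by simp [ι]⟩
  exact this

/-- the trace map to the centre -/
noncomputable def Tr (x : MonoidAlgebra ℂ G) : MonoidAlgebra ℂ G := ∑ g : G, single g 1 * x * single g⁻¹ 1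

lemma Tr_mem (x : MonoidAlgebra ℂ G) : Tr x ∈ Subalgebra.center ℂ (MonoidAlgebra ℂ G) := by
  refine mem_center_iff_single.2 fun h => ?_
  rw [Tr, Finset.mul_sum, Finset.sum_mul]
  refine Fintype.sum_equiv (Equiv.mulLeft h) _ _ fun g => ?_
  simp only [Equiv.coe_mulLeft, mul_assoc, single_mul_single, mul_inv_rev, inv_mul_cancel, mul_one]
  rw [← mul_assoc, single_mul_single, mul_one]

lemma Tr_center {z : MonoidAlgebra ℂ G} (hz : z ∈ Subalgebra.center ℂ (MonoidAlgebra ℂ G)) (x : MonoidAlgebra ℂ G) :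
    Tr (z * x) = z * Tr x := by
  rw [Tr, Tr, Finset.mul_sum]
  refine Finset.sum_congr rfl fun g _ => ?_
  rw [← mul_assoc, ← center_comm hz, mul_assoc, mul_assoc, mul_assoc]

lemma chiL_Tr {χ : G → ℂ} (hχ : IsClassFunction G χ) (x : MonoidAlgebra ℂ G) :
    chiL χ (Tr x) = Nat.card G * chiL χ x := by
  rw [Tr, map_sum, Finset.sum_congr rfl (g := fun _ => chiL χ x) fun g _ => by
    rw [chiL_mul_comm hχ, ← mul_assoc, single_mul_single, inv_mul_cancel, mul_one, ← one_def, one_mul]]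
  simp [Nat.card_eq_fintype_card]

lemma Tr_mul_e {h : MonoidAlgebra ℂ G} (h1 : D.e * h = h) (h2 : h * D.e = h) :
    Tr h * D.e = ∑ w, (D.d w : ℂ) • (D.a w * h * D.a (D.inv w)) := by
  rw [← D.sum_cl fun w => D.a w * h * D.a (D.inv w)]
  conv_lhs => rw [← D.e_mul_e, ← mul_assoc, center_comm (Tr_mem h), Tr, Finset.mul_sum, Finset.sum_mul]
  refine Finset.sum_congr rfl fun g _ => ?_
  rw [← D.cl_inv, ← e_single_e, ← e_single_e]
  conv_lhs => rw [← h1, ← h2]
  simp only [mul_assoc]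

/-- `e_χ e` -/
noncomputable def φ (χ : IrrCharacter G) : MonoidAlgebra ℂ G := fB {χ} * D.e

lemma φ_eq_zero {χ : IrrCharacter G} (h : chiL χ D.e = 0) : D.φ χ = 0 := by
  refine eq_zero_of_chiL fun ψ x => ?_
  rw [φ, mul_assoc]
  by_cases hψ : ψ = χ
  · subst hψ
    rw [chiL_fB_mul_of_mem (Set.mem_singleton _)]
    obtain ⟨n, ρ, -, hρ⟩ := ψ.2
    rw [← hρ, chiL_character] at h ⊢
    have : IsIdempotentElem (ρ.asAlgebraHom D.e) := by rw [IsIdempotentElem, ← map_mul, D.e_mul_e]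
    rw [map_mul, LinearMap.IsIdempotentElem.eq_zero_of_trace_eq_zero this h, zero_mul, map_zero]
  · exact chiL_fB_mul_of_not_mem (B := {χ}) (ψ := ψ) hψ _

lemma center_mul_fB {z : MonoidAlgebra ℂ G} (hz : z ∈ Subalgebra.center ℂ (MonoidAlgebra ℂ G)) (χ : IrrCharacter G) :
    fB {χ} * z = omega χ z • fB {χ} := by
  classical
  refine center_ext (mul_mem (fB_mem_center _) hz) (Subalgebra.smul_mem _ (fB_mem_center _) _) fun ψ => ?_
  rw [omega_center_mul ψ.2 (fB_mem_center _), map_smul, omega_fB]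
  split_ifs with h
  · rw [Set.mem_singleton_iff.1 h]; simp
  · simp

lemma omega_Tr_ne {χ : IrrCharacter G} (h : chiL χ D.e ≠ 0) : omega χ (Tr D.e) ≠ 0 := by
  rw [omega_apply, chiL_Tr χ.2.isClassFunction]
  exact div_ne_zero (mul_ne_zero natCard_ne_zero' h) χ.2.apply_one_ne_zero

/-- the span of the `e_χ e` -/
noncomputable def V : Submodule ℂ (MonoidAlgebra ℂ G) :=
  Submodule.span ℂ (Set.range fun χ : {χ : IrrCharacter G // chiL χ D.e ≠ 0} => D.φ χ)

lemma φ_mem (χ : IrrCharacter G) : D.φ χ ∈ D.V := by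
  by_cases h : chiL χ D.e = 0
  · rw [D.φ_eq_zero h]; exact zero_mem _
  · exact Submodule.subset_span ⟨⟨χ, h⟩, rfl⟩

lemma center_mul_e_mem {z : MonoidAlgebra ℂ G} (hz : z ∈ Subalgebra.center ℂ (MonoidAlgebra ℂ G)) : z * D.e ∈ D.V := by
  rw [center_eq_sum_fB hz, Finset.sum_mul]
  exact Submodule.sum_mem _ fun χ _ => by rw [smul_mul_assoc]; exact Submodule.smul_mem _ _ (D.φ_mem χ)

lemma finrank_V : Module.finrank ℂ D.V = Nat.card {χ : IrrCharacter G // chiL χ D.e ≠ 0} := by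
  classical
  rw [V, finrank_span_eq_card, Nat.card_eq_fintype_card]
  refine Fintype.linearIndependent_iff.2 fun f hf ψ => ?_
  have := congrArg (chiL ψ.1) hf
  rw [map_sum, map_zero, Finset.sum_eq_single ψ] at this
  · rw [map_smul, φ, chiL_fB_mul_of_mem (Set.mem_singleton _), smul_eq_mul] at this
    exact (mul_eq_zero.1 this).resolve_right ψ.2
  · intro χ _ hχ
    rw [map_smul, φ, chiL_fB_mul_of_not_mem fun h => hχ (Subtype.ext (Set.mem_singleton_iff.1 h).symm), smul_zero]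
  · simp

lemma e_φ_e (χ : IrrCharacter G) : D.e * D.φ χ * D.e = D.φ χ := by
  rw [φ, ← mul_assoc, ← center_comm (fB_mem_center _), mul_assoc, mul_assoc, D.e_mul_e, D.e_mul_e]

lemma mem_V_of_comm {h : MonoidAlgebra ℂ G} (h1 : D.e * h = h) (h2 : h * D.e = h) (hc : ∀ w, D.a w * h = h * D.a w) :
    h ∈ D.V := by
  have k1 : Tr h * D.e = h * (Tr D.e * D.e) := by
    rw [D.Tr_mul_e h1 h2, D.Tr_mul_e D.e_mul_e D.e_mul_e, Finset.mul_sum]
    refine Finset.sum_congr rfl fun w _ => ?_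
    rw [hc, a_mul_e, mul_smul_comm, mul_assoc]
  have k2 : h = ∑ χ : IrrCharacter G, fB {χ} * h := by
    rw [← Finset.sum_mul]
    have := center_eq_sum_fB (one_mem (Subalgebra.center ℂ (MonoidAlgebra ℂ G)))
    simp only [fun χ : IrrCharacter G => omega_one χ.2.apply_one_ne_zero, one_smul] at this
    rw [← this, one_mul]
  rw [k2]
  refine Submodule.sum_mem _ fun χ _ => ?_
  by_cases hχ : chiL χ D.e = 0
  · rw [← h1, ← mul_assoc, ← φ, D.φ_eq_zero hχ, zero_mul]; exact zero_mem _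
  have k3 : omega χ (Tr D.e) • (fB {χ} * h) = (fB {χ} * Tr h) * D.e := by
    rw [mul_assoc, k1, ← mul_assoc, ← mul_assoc, center_comm (fB_mem_center _) h, mul_assoc h, center_mul_fB (Tr_mem _),
      mul_smul_comm, smul_mul_assoc, ← center_comm (fB_mem_center _) h, mul_assoc, h2]
  have k4 := D.center_mul_e_mem (mul_mem (fB_mem_center {χ}) (Tr_mem h))
  rw [← k3] at k4
  exact (Submodule.smul_mem_iff _ (D.omega_Tr_ne hχ)).1 k4

variable {c : W → W → W → ℂ} (hc : ∀ u v, D.a u * D.a v = ∑ w, c u v w • D.a w)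
include hc

lemma c_inv (w : W) : c (D.inv w) w (D.cl 1) = D.d (D.cl 1) * (D.d w : ℂ)⁻¹ := by
  have h1 := congrArg (fun x => x.coeff 1) (hc (D.inv w) w)
  simp only [← ι_apply, coeff_ι] at h1
  rw [coeff_mul_left'] at h1
  simp only [coeff_a, mul_one, D.cl_inv] at h1
  rw [D.sum_cl fun v => (if v = D.inv w then (D.d (D.inv w) : ℂ)⁻¹ else 0) *
    if D.inv v = w then (D.d w : ℂ)⁻¹ else 0, Finset.sum_eq_single (D.inv w) (fun v _ hv => by simp [hv]) (by simp)] at h1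
  simp only [if_true, D.inv_inv, smul_eq_mul, ← mul_assoc, mul_inv_cancel₀ (D.d_ne _), one_mul] at h1
  rw [h1]
  field_simp [D.d_ne]

lemma a_mul_ι (u : W) (z : W → ℂ) : D.a u * D.ι z = D.ι fun t => ∑ v, c u v t * z v := by
  simp only [ι_apply, Finset.mul_sum, mul_smul_comm, hc, Finset.smul_sum, Finset.sum_smul, smul_smul]
  rw [Finset.sum_comm]
  simp only [mul_comm]

lemma ι_mul_a (u : W) (z : W → ℂ) : D.ι z * D.a u = D.ι fun t => ∑ v, c v u t * z v := by
  simp only [ι_apply, Finset.sum_mul, smul_mul_assoc, hc, Finset.smul_sum, Finset.sum_smul, smul_smul]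
  rw [Finset.sum_comm]
  simp only [mul_comm]

lemma Amat_iff (z : W → ℂ) : (Amat c).mulVec z = 0 ↔ ∀ w, D.a w * D.ι z = D.ι z * D.a w := by
  simp only [D.a_mul_ι hc, D.ι_mul_a hc, D.ι_inj.eq_iff, funext_iff, Matrix.mulVec, dotProduct, Amat, sub_mul,
    Finset.sum_sub_distrib, Pi.zero_apply, sub_eq_zero, Prod.forall]

lemma ι_Pmat : ∃ K : ℂ, K ≠ 0 ∧ ∀ z, D.ι ((Pmat c D.inv (D.cl 1)).mulVec z) = K • (Tr (D.ι z) * D.e) := by
  refine ⟨(∏ w, c (D.inv w) w (D.cl 1)) * (D.d (D.cl 1) : ℂ)⁻¹, mul_ne_zero (Finset.prod_ne_zero_iff.2 fun w _ => ?_)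
    (inv_ne_zero (D.d_ne _)), fun z => ?_⟩
  · rw [D.c_inv hc]; exact mul_ne_zero (D.d_ne _) (inv_ne_zero (D.d_ne _))
  rw [D.Tr_mul_e (D.e_mul_ι z) (D.ι_mul_e z), Finset.smul_sum]
  simp only [D.a_mul_ι hc, D.ι_mul_a hc, smul_smul, ← map_smul, ← map_sum]
  congr 1
  funext t
  simp only [Matrix.mulVec, dotProduct, Pmat, Finset.sum_apply, Pi.smul_apply, smul_eq_mul, Finset.sum_mul]
  rw [Finset.sum_comm]
  refine Finset.sum_congr rfl fun w _ => ?_
  have : (∏ w, c (D.inv w) w (D.cl 1)) * (D.d (D.cl 1) : ℂ)⁻¹ * D.d w =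
      ∏ w' ∈ Finset.univ.erase w, c (D.inv w') w' (D.cl 1) := by
    rw [← Finset.mul_prod_erase _ _ (Finset.mem_univ w), D.c_inv hc w]
    field_simp [D.d_ne]
  rw [this]
  simp only [mul_assoc, ← Finset.mul_sum]
  congr 1
  simp only [Finset.mul_sum, Finset.sum_mul]
  rw [Finset.sum_comm]
  refine Finset.sum_congr rfl fun r _ => Finset.sum_congr rfl fun v _ => by ring

theorem rank_Pmat : (Pmat c D.inv (D.cl 1)).rank = Nat.card {χ : IrrCharacter G // chiL χ D.e ≠ 0} := by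
  obtain ⟨K, hK, h⟩ := D.ι_Pmat hc
  rw [← finrank_V, Matrix.rank, (Submodule.equivMapOfInjective D.ι D.ι_inj _).finrank_eq]
  refine congrArg (fun S : Submodule ℂ (MonoidAlgebra ℂ G) => Module.finrank ℂ S) ?_
  refine le_antisymm ?_ (Submodule.span_le.2 ?_)
  · rintro _ ⟨_, ⟨z, rfl⟩, rfl⟩
    rw [Matrix.mulVecLin_apply, h]
    exact Submodule.smul_mem _ _ (D.center_mul_e_mem (Tr_mem _))
  · rintro _ ⟨χ, rfl⟩
    obtain ⟨z, hz⟩ := D.exists_ι (D.e_φ_e χ)
    refine ⟨_, ⟨(K * omega χ.1 (Tr D.e))⁻¹ • z, rfl⟩, ?_⟩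
    rw [map_smul, map_smul, Matrix.mulVecLin_apply, h, hz, φ, Tr_center (fB_mem_center _), center_mul_fB (Tr_mem _),
      smul_mul_assoc, smul_smul, smul_smul, mul_assoc, inv_mul_cancel₀ (mul_ne_zero hK (D.omega_Tr_ne χ.2)), one_smul]
    rfl

theorem rank_Amat : (Amat c).rank + Nat.card {χ : IrrCharacter G // chiL χ D.e ≠ 0} = Fintype.card W := by
  have h1 := (Amat c).mulVecLin.finrank_range_add_finrank_ker
  rw [Module.finrank_fintype_fun_eq_card] at h1
  rw [← h1, Matrix.rank, ← finrank_V, (Submodule.equivMapOfInjective D.ι D.ι_inj (LinearMap.ker _)).finrank_eq]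
  refine congrArg (fun S : Submodule ℂ (MonoidAlgebra ℂ G) => _ + Module.finrank ℂ S) ?_
  refine le_antisymm (Submodule.span_le.2 ?_) ?_
  · rintro _ ⟨χ, rfl⟩
    obtain ⟨z, hz⟩ := D.exists_ι (D.e_φ_e χ)
    refine ⟨z, (D.Amat_iff hc z).2 fun w => ?_, hz⟩
    rw [hz, φ, ← mul_assoc, ← center_comm (fB_mem_center _), mul_assoc, mul_assoc, a_mul_e, e_mul_a]
  · rintro _ ⟨z, hz, rfl⟩
    exact D.mem_V_of_comm (D.e_mul_ι z) (D.ι_mul_e z) ((D.Amat_iff hc z).1 hz)

end DC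
end Cfsg.Agent.H14.Hk
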