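import Cfsg.Agent.H14.Hk2
import Cfsg.Agent.H14.Stb1
import Cfsg.Agent.H15.BN

/-!
# The generic Hecke algebra and the number of constituents of `1_B^G`
-/

set_option autoImplicit false
set_option linter.unusedSectionVars false

namespace Cfsg.Agent.H14.Hk
open MonoidAlgebra Cfsg Cfsg.Agent.H4 Cfsg.Agent.H6 Cfsg.Agent.H15

section generic
variable {ι W : Type*} [Group W] [Fintype W] [DecidableEq W] (E : InvSys ι W)

/-- left multiplication by a generator in the generic Hecke algebra -/
noncomputable def Lm (y : ℂ) (i : ι) : Matrix W W ℂ := fun t v =>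
  if E.len v < E.len (E.s i * v) then (if t = E.s i * v then 1 else 0)
  else y * (if t = E.s i * v then 1 else 0) + (1 - y) * (if t = v then 1 else 0)

/-- structure constants -/
noncomputable def cst (y : ℂ) (u v w : W) : ℂ := ((E.exists_red' u).choose.map (Lm E y)).prod w v

lemma Lm_PF (i : ι) (t v : W) : (fun y => Lm E y i t v) ∈ PF := by
  unfold Lm
  split_ifs
  all_goals first
    | exact const_mem_PF _
    | exact PF_add (PF_mul id_mem_PF (const_mem_PF _)) (PF_mul (PF_sub (const_mem_PF _) id_mem_PF) (const_mem_PF _))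

lemma cst_PF (u v w : W) : (fun y => cst E y u v w) ∈ PF := by
  unfold cst
  generalize (E.exists_red' u).choose = l
  induction l generalizing v w with
  | nil => exact const_mem_PF _
  | cons i l ih =>
    simp only [List.map_cons, List.prod_cons]
    exact PF_matmul (Lm_PF E i) (fun a b => ih b a) w v

/-- the two rank conditions -/
def Real (y : ℂ) (m : ℕ) : Prop :=
  (Amat (cst E y)).rank + m = Fintype.card W ∧ (Pmat (cst E y) (fun w => w⁻¹) 1).rank = m

theorem Real.eq (hS : {y | ∃ m, Real E y m}.Infinite) {x y : ℂ} {m n : ℕ} (hx : Real E x m) (hy : Real E y n) :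
    m = n := by
  rw [← hx.2, ← hy.2]
  refine deform (A := fun y => Amat (cst E y)) (P := fun y => Pmat (cst E y) (fun w => w⁻¹) 1) (N := Fintype.card W)
    (Amat_PF (cst_PF E)) (Pmat_PF (cst_PF E) _ _) (hS.mono ?_) (by rw [hx.2, hx.1]) (by rw [hy.2, hy.1])
  rintro z ⟨k, h1, h2⟩
  change _ + _ = _
  rw [h2, h1]

variable {G : Type*} [Group G] [Fintype G] (D : DC G W)

theorem real_of (hlen : ∀ i v, E.len (E.s i * v) ≠ E.len v) (h1 : D.cl 1 = 1) (hinv : D.inv = fun w => w⁻¹) {y : ℂ}
    (hpos : ∀ i v, E.len v < E.len (E.s i * v) → D.a (E.s i) * D.a v = D.a (E.s i * v))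
    (hsq : ∀ i, D.a (E.s i) * D.a (E.s i) = y • D.e + (1 - y) • D.a (E.s i)) :
    Real E y (Nat.card {χ : IrrCharacter G // chiL χ D.e ≠ 0}) := by
  have k1 : ∀ i v, D.a (E.s i) * D.a v = ∑ t, Lm E y i t v • D.a t := fun i v => by
    unfold Lm
    by_cases h : E.len v < E.len (E.s i * v)
    · simp [h, hpos i v h]
    · have h2 : E.len (E.s i * v) < E.len (E.s i * (E.s i * v)) := by
        rw [E.s_mul_s_mul]; have := hlen i v; omega
      have h3 := hpos i _ h2
      rw [E.s_mul_s_mul] at h3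
      simp only [h, if_false, add_smul, Finset.sum_add_distrib, mul_smul, ← Finset.smul_sum, ite_smul, one_smul,
        zero_smul, Finset.sum_ite_eq', Finset.mem_univ, if_true]
      conv_lhs => rw [← h3, ← mul_assoc, hsq, add_mul, smul_mul_assoc, smul_mul_assoc, D.e_mul_a, h3]
  have k2 : ∀ l, E.Red l → ∀ v, D.a (E.wp l) * D.a v = ∑ t, (l.map (Lm E y)).prod t v • D.a t := fun l hl => by
    induction l with
    | nil =>
      intro v
      simp only [E.wp_nil, List.map_nil, List.prod_nil, Matrix.one_apply, ite_smul, one_smul, zero_smul,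
        Finset.sum_ite_eq', Finset.mem_univ, if_true]
      rw [← h1, D.a_one, D.e_mul_a]
    | cons i l ih =>
      intro v
      have h2 : E.len (E.wp l) < E.len (E.s i * E.wp l) := by
        rw [← E.wp_cons, hl, hl.tail]; simp
      rw [E.wp_cons, ← hpos i _ h2, mul_assoc, ih hl.tail, Finset.mul_sum]
      simp only [mul_smul_comm, k1, Finset.smul_sum, smul_smul, List.map_cons, List.prod_cons, Matrix.mul_apply,
        Finset.sum_smul]
      rw [Finset.sum_comm]
      simp only [mul_comm]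
  have hc : ∀ u v, D.a u * D.a v = ∑ w, cst E y u v w • D.a w := fun u v => by
    obtain ⟨h2, h3⟩ := (E.exists_red' u).choose_spec
    conv_lhs => rw [← h3]
    exact k2 _ h2 v
  refine ⟨D.rank_Amat hc, ?_⟩
  rw [← D.rank_Pmat hc, h1, hinv]

/-- the trivial double coset data -/
def triv (W : Type*) [Group W] : DC W W where
  B := ⊥
  cl := id
  surj := Function.surjective_id
  cl_eq g g' := by simp [eq_comm]
  inv w := w⁻¹
  cl_inv _ := rfl

theorem real_one (hlen : ∀ i v, E.len (E.s i * v) ≠ E.len v) : Real E 1 (Nat.card (ConjClasses W)) := by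
  have he : (triv W).e = 1 := by
    rw [← one_mul (triv W).e]
    exact (triv W).mul_e_of fun b hb => by rw [Subgroup.mem_bot.1 hb, ← one_def, mul_one]
  have ha : ∀ w, (triv W).a w = single w 1 := fun w => by
    have := (triv W).e_single_e w
    rw [he, one_mul, mul_one] at this
    exact this.symm
  have := real_of E (triv W) hlen rfl rfl (y := 1) (fun i v _ => by simp [ha, single_mul_single])
    fun i => by simp [ha, he, single_mul_single, one_def]
  rwa [Nat.card_congr (Equiv.subtypeUnivEquiv fun χ => by rw [he, chiL_one]; exact χ.2.apply_one_ne_zero),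
    card_irr_eq_card_conjClasses] at this
end generic

namespace DC
variable {G W : Type*} [Group G] [Fintype G] [Fintype W] [DecidableEq W] (D : DC G W)

open Classical in
lemma a_mul_a (g g' : G) : D.a (D.cl g) * D.a (D.cl g') =
    (Nat.card D.B : ℂ)⁻¹ • ∑ b : D.B, D.a (D.cl (g * b * g')) := by
  have h1 : D.a (D.cl g) * D.a (D.cl g') = (D.e * single g 1) * D.e * (single g' 1 * D.e) := by
    rw [← D.e_single_e, ← D.e_single_e]
    calc _ = (D.e * single g 1) * (D.e * D.e) * (single g' 1 * D.e) := by simp only [mul_assoc]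
      _ = _ := by rw [D.e_mul_e]
  have h2 : ∀ x y : MonoidAlgebra ℂ G, x * D.e * y = (Nat.card D.B : ℂ)⁻¹ • ∑ b : D.B, x * single (b : G) 1 * y := by
    intro x y
    rw [e, mul_smul_comm, smul_mul_assoc, Finset.mul_sum, Finset.sum_mul]
  rw [h1, h2]
  refine congrArg _ (Finset.sum_congr rfl fun b _ => ?_)
  have : (single (g * b * g') 1 : MonoidAlgebra ℂ G) = single g 1 * single (b : G) 1 * single g' 1 := by
    simp [single_mul_single]
  rw [← D.e_single_e, this]
  simp only [mul_assoc]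

lemma coeff_one_mul (w : W) : (D.a (D.inv w) * D.a w).coeff 1 = (D.d w : ℂ)⁻¹ := by
  rw [coeff_mul_left']
  simp only [coeff_a, mul_one, D.cl_inv]
  rw [D.sum_cl fun v => (if v = D.inv w then (D.d (D.inv w) : ℂ)⁻¹ else 0) *
    if D.inv v = w then (D.d w : ℂ)⁻¹ else 0, Finset.sum_eq_single (D.inv w) (fun v _ hv => by simp [hv]) (by simp)]
  simp only [if_true, D.inv_inv, smul_eq_mul, ← mul_assoc, mul_inv_cancel₀ (D.d_ne _), one_mul]

lemma constituent_iff (χ : IrrCharacter G) :
    (∃ φ : G → ℂ, IsCharacter G φ ∧ fixedPointCharacter D.B = (χ : G → ℂ) + φ) ↔ chiL χ D.e ≠ 0 := by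
  classical
  have hB : IsCharacter G (fixedPointCharacter D.B) := isCharacter_perm (G ⧸ D.B)
  have h1 : classInner (χ : G → ℂ) (fixedPointCharacter D.B) = chiL χ D.e := by
    rw [classInner_def, e, map_smul, map_sum]
    have k : ∀ x : G, ∑ g : G, (χ.1 g * if x⁻¹ * g * x ∈ D.B then 1 else 0) = ∑ b : D.B, χ.1 b := fun x => by
      rw [← Equiv.sum_comp (MulAut.conj x).toEquiv]
      simp only [MulEquiv.toEquiv_eq_coe, EquivLike.coe_coe, MulAut.conj_apply, χ.2.isClassFunction _ x, mul_ite,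
        mul_one, mul_zero, ← mul_assoc, inv_mul_cancel, one_mul, inv_mul_cancel_right]
      rw [← Finset.sum_filter]
      exact Finset.sum_subtype _ (by simp) _
    have k2 : ∀ g : G, (starRingEnd ℂ) (fixedPointCharacter D.B g) =
        (Nat.card D.B : ℂ)⁻¹ * ∑ x : G, if x⁻¹ * g * x ∈ D.B then 1 else 0 := fun g => by
      have : (starRingEnd ℂ) (fixedPointCharacter D.B g) = fixedPointCharacter D.B g := by
        simp [fixedPointCharacter]
      rw [this, fixed_eq_top, cnt_cast, div_eq_inv_mul]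
      simp
    simp only [k2, chiL_single, one_mul, smul_eq_mul, mul_left_comm _ (Nat.card D.B : ℂ)⁻¹, ← Finset.mul_sum]
    congr 1
    rw [Finset.sum_congr rfl fun g _ => Finset.mul_sum Finset.univ _ (χ.1 g), Finset.sum_comm]
    simp only [k, Finset.sum_const, Finset.card_univ, ← Nat.card_eq_fintype_card, nsmul_eq_mul, ← mul_assoc,
      inv_mul_cancel₀ (natCard_ne_zero' (G := G)), one_mul]
  rw [← h1, χ.2.isCharacter.classInner_comm hB]
  refine ⟨?_, fun h => ⟨_, hB.sub_irr χ.2 h, by simp⟩⟩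
  rintro ⟨φ, hφ, h⟩
  obtain ⟨n, hn⟩ := hφ.classInner_nat χ.2.isCharacter
  rw [h, classInner_add_left, χ.2.classInner_self, hn]
  exact_mod_cast (by omega : 1 + n ≠ 0)

end DC

section bn
open BN
variable {ι W : Type*} [Group W] [Fintype W] [DecidableEq W] (E : InvSys ι W)
variable {G : Type*} [Group G] [Fintype G] (P : BNPair G) (ψ : BN.W P ≃* W)

/-- double coset data of a BN-pair -/
noncomputable def bnDC : DC G W where
  B := P.B
  cl g := ψ (exists_mem_C g).choose
  surj w := by
    obtain ⟨n, -, hn⟩ := C_nonempty (ψ.symm w)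
    exact ⟨n, by simp [eq_of_mem_C (exists_mem_C (n : G)).choose_spec hn]⟩
  cl_eq g g' := by
    refine ⟨fun h => exists_of_mem_C (exists_mem_C g).choose_spec ?_, ?_⟩
    · rw [ψ.injective h]; exact (exists_mem_C g').choose_spec
    · rintro ⟨b, hb, b', hb', rfl⟩
      rw [eq_of_mem_C (exists_mem_C _).choose_spec
        (mul_mem_C_right (mul_mem_C_left hb (exists_mem_C g).choose_spec) hb')]
  inv w := w⁻¹
  cl_inv g := by rw [eq_of_mem_C (exists_mem_C _).choose_spec (inv_mem_C (exists_mem_C g).choose_spec), map_inv]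

lemma bnDC_cl {g : G} {w : BN.W P} : (bnDC P ψ).cl g = ψ w ↔ g ∈ C P w :=
  ⟨fun h => ψ.injective h ▸ (exists_mem_C g).choose_spec,
    fun h => congrArg ψ (eq_of_mem_C (exists_mem_C g).choose_spec h)⟩

lemma bnDC_d (w : BN.W P) : (bnDC P ψ).d (ψ w) = Nat.card (C P w) := by
  classical
  rw [DC.d, Nat.card_eq_fintype_card, Fintype.card_subtype]
  simp only [bnDC_cl]

theorem real_bn (e : ι ≃ P.S) (hψ : ∀ i, ψ (sW P (e i)) = E.s i) {q : ℕ}
    (hq : ∀ i, Nat.card (C P (sW P (e i))) = q * Nat.card P.B) :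
    (∀ i v, E.len (E.s i * v) ≠ E.len v) ∧
      Real E (q : ℂ)⁻¹ (Nat.card {χ : IrrCharacter G //
        ∃ φ : G → ℂ, IsCharacter G φ ∧ fixedPointCharacter P.B = (χ : G → ℂ) + φ}) := by
  classical
  have hl : ∀ w, E.len (ψ w) = (ex P).len w := fun w => by
    rw [← (ex P).toInvSys.reindex_len e]
    exact ((ex P).toInvSys.reindex e).len_map E ψ.toMonoidHom hψ ψ.injective w
  have hlen : ∀ i v, E.len (E.s i * v) ≠ E.len v := fun i v => by
    obtain ⟨v, rfl⟩ := ψ.surjective v
    rw [← hψ, ← map_mul, hl, hl]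
    have := (ex P).len_s_mul (e i) v
    rw [ex_s] at this
    omega
  refine ⟨hlen, ?_⟩
  set D := bnDC P ψ with hD
  have h1 : D.cl 1 = 1 := by rw [← map_one ψ]; exact (bnDC_cl P ψ).2 (mem_C_one.2 (one_mem _))
  have := real_of E D hlen h1 rfl (y := (q : ℂ)⁻¹) (fun i v h => ?_) fun i => ?_
  · rwa [← Nat.card_congr (Equiv.subtypeEquivRight D.constituent_iff)] at this
  · obtain ⟨v, rfl⟩ := ψ.surjective v
    rw [← hψ, ← map_mul, hl, hl] at h
    obtain ⟨n, -, hn⟩ := C_nonempty v
    rw [← hψ, ← map_mul, ← (bnDC_cl P ψ).2 hn, ← (bnDC_cl P ψ).2 (s_mem_C (e i)), D.a_mul_a,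
      Finset.sum_congr rfl (g := fun _ => D.a (ψ (sW P (e i) * v))) fun b _ => by
        rw [(bnDC_cl P ψ).2 (mul_mem_of_pos ((ex P).pos_iff.2 h) (mul_mem_C_right (s_mem_C (e i)) b.2) hn)],
      Finset.sum_const, Finset.card_univ, ← Nat.card_eq_fintype_card, ← Nat.cast_smul_eq_nsmul ℂ, smul_smul,
      inv_mul_cancel₀ D.cardB_ne, one_smul]
  · have hs : D.cl (e i) = E.s i := by rw [← hψ]; exact (bnDC_cl P ψ).2 (s_mem_C (e i))
    obtain ⟨α, hα⟩ : ∃ α : ℂ, D.a (E.s i) * D.a (E.s i) = α • D.e + (1 - α) • D.a (E.s i) := by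
      have k : ∀ b : D.B, ∃ β : ℂ, D.a (D.cl (e i * b * e i)) = β • D.e + (1 - β) • D.a (E.s i) := fun b => by
        rcases s_mul_mem (mul_mem_C_right (s_mem_C (e i)) b.2) (s_mem_C (e i)) with h | h
        · refine ⟨1, ?_⟩
          rw [(bnDC_cl P ψ).2 h, map_mul, hψ, E.s_mul_s, ← h1, D.a_one]; simp
        · refine ⟨0, ?_⟩
          rw [(bnDC_cl P ψ).2 h, hψ]; simp
      choose β hβ using k
      refine ⟨(Nat.card D.B : ℂ)⁻¹ * ∑ b, β b, ?_⟩
      conv_lhs => rw [← hs, D.a_mul_a]
      simp only [hβ, Finset.sum_add_distrib, ← Finset.sum_smul, smul_add, smul_smul, Finset.sum_sub_distrib,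
        Finset.sum_const, Finset.card_univ, ← Nat.card_eq_fintype_card, nsmul_eq_mul, mul_one, mul_sub,
        inv_mul_cancel₀ D.cardB_ne]
    have h2 := D.coeff_one_mul (E.s i)
    have h3 : D.inv (E.s i) = E.s i := E.inv_s i
    have h4 : E.s i ≠ 1 := by rw [← hψ]; simpa using sW_ne_one (e i)
    rw [h3, hα, coeff_add', coeff_smul', coeff_smul', ← D.a_one, D.coeff_a, D.coeff_a, if_pos rfl, h1, if_neg h4.symm,
      ← hψ, ← map_one ψ, bnDC_d, bnDC_d, hq] at h2
    have h5 : Nat.card (C P 1) = Nat.card P.B := Nat.card_congr (Equiv.subtypeEquivRight fun _ => mem_C_one)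
    have h6 : (Nat.card P.B : ℂ) ≠ 0 := D.cardB_ne
    rw [h5, mul_zero, add_zero, Nat.cast_mul, mul_inv, mul_left_inj' (inv_ne_zero h6)] at h2
    rw [hα, h2]

end bn
end Cfsg.Agent.H14.Hk
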