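import Cfsg.Agent.H14.Stb4
import Cfsg.Agent.H14.GrpD

/-! The Steinberg character of the tabulated Chevalley groups. -/

set_option autoImplicit false

namespace Cfsg.Agent.H14

open Cfsg.Lie Finset

lemma RG.sub_P {ι Φ : Type} [Fintype ι] [DecidableEq ι] {R : RS ι Φ} {K : Type*} [Field K] {G : Type*} [Group G]
    (X : RG R K G) (M : Subgroup G) (hM : ∀ r t, X.x r t ∈ M) (J : Set ι) :
    (X.sub M hM).P J = (X.P J).subgroupOf M := by
  refine eq_subgroupOf_of_map ?_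
  rw [RG.P_eq, RG.P_eq, Subgroup.map_sup, (X.sub_hom M hM).map_H, (X.sub_hom M hM).map_gen]

variable {D : ChevalleyDatum} (G : Good D) (F : Type*) [Field F]

lemma Good.rgD_P (J : Set ℕ) : (G.rgD F).P (Fin.val ⁻¹' J) = (D.parabolicSubgroup F J).subgroupOf _ := by
  rw [G.P_eq, Good.rgD, RG.sub_P]

lemma Good.rgD_UJ (J : Set ℕ) : (G.rgD F).UJ (Fin.val ⁻¹' J) = (D.unipotentRadical F J).subgroupOf _ := by
  rw [G.UJ_eq]; exact G.rgD_gen F _

lemma Good.rgD_B : (G.rgD F).B = (D.borelSubgroup F).subgroupOf _ := by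
  rw [G.B_eq, Good.rgD, RG.sub_B]

lemma Good.card_rgD_U [Finite F] : Nat.card (G.rgD F).U = Nat.card F ^ (D.nroots / 2) := by
  rw [RG.card_U]; simp

theorem Good.steinberg_eq [Fintype (D.group F)] : D.steinbergCharacter F = (G.rgD F).stX univ := by
  ext g
  refine (Finset.sum_bij (fun I _ => I.map Fin.valEmbedding) (fun I _ => ?_) (fun I _ J _ h => map_injective _ h)
    (fun J hJ => ⟨univ.filter (·.val ∈ J), by simp, ?_⟩) fun I _ => ?_).symm
  · simp [subset_iff]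
  · ext j
    simpa using ⟨by rintro ⟨a, h, rfl⟩; exact h, fun h => ⟨⟨j, mem_range.1 (mem_powerset.1 hJ h)⟩, h, rfl⟩⟩
  · rw [fixed_eq_top, card_map, coe_univ, (G.rgD F).P_univ (G.rgD_top F), ChevalleyDatum.parabolicIn, ← G.rgD_P,
      show Fin.val ⁻¹' (↑(I.map Fin.valEmbedding) : Set ℕ) = (I : Set (Fin D.rank)) by
        ext; simp [Fin.val_inj]]
    rfl

end Cfsg.Agent.H14
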