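import Cfsg.Agent.H14.Hk3
import Cfsg.Agent.H14.StbD
import Cfsg.Agent.H14.Types

/-!
# The principal series of a Chevalley group
-/

set_option autoImplicit false

namespace Cfsg.Agent.H14.Hk
open Cfsg Cfsg.Lie Cfsg.Agent.H15

variable {D : ChevalleyDatum} (G : Good D) (M : CoxeterMatrix (Fin D.rank))
  (hM : ∀ i j, i ≠ j → CoxChk (G.R.car i j) (G.R.car j i) (M i j))
include hM

lemma exists_psi (F : Type*) [Field F] : ∃ ψ : BN.W ((G.rgD F).bn (G.rgD_top F)) ≃* M.Group,
    ∀ i, ψ (BN.sW _ ((G.rgD F).sEquiv (G.rgD_top F) i)) = M.simple i := by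
  obtain ⟨cs, hcs⟩ := ((BN.ex ((G.rgD F).bn (G.rgD_top F))).reindex ((G.rgD F).sEquiv (G.rgD_top F))).exists_coxeterSystem M
    ((G.rgD F).orderOf_sW_eq (G.rgD_top F) (Equiv.refl _) M hM)
  refine ⟨cs.mulEquiv, fun i => ?_⟩
  have : cs.simple i = BN.sW _ ((G.rgD F).sEquiv (G.rgD_top F) i) := hcs i
  rw [← this]
  exact cs.mulEquiv.apply_symm_apply _

lemma real_chev [Fintype M.Group] [DecidableEq M.Group] (F : Type*) [Field F] [Finite F] :
    (∀ i v, (invSysOfCox M.toCoxeterSystem).len ((invSysOfCox M.toCoxeterSystem).s i * v) ≠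
      (invSysOfCox M.toCoxeterSystem).len v) ∧
    Real (invSysOfCox M.toCoxeterSystem) (Nat.card F : ℂ)⁻¹ (Nat.card {χ : IrrCharacter (D.group F) //
      ∃ φ : D.group F → ℂ, IsCharacter (D.group F) φ ∧
        fixedPointCharacter ((D.borelSubgroup F).subgroupOf (D.group F)) = (χ : D.group F → ℂ) + φ}) := by
  obtain ⟨ψ, hψ⟩ := exists_psi G M hM F
  have := Fintype.ofFinite (D.group F)
  rw [← G.rgD_B]
  exact real_bn _ _ ψ _ hψ ((G.rgD F).card_cell (G.rgD_top F))

theorem principal (F : Type*) [Field F] [Finite F] : Nat.card {χ : IrrCharacter (D.group F) //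
      ∃ φ : D.group F → ℂ, IsCharacter (D.group F) φ ∧
        fixedPointCharacter ((D.borelSubgroup F).subgroupOf (D.group F)) = (χ : D.group F → ℂ) + φ} =
    Nat.card (ConjClasses M.Group) := by
  classical
  obtain ⟨ψ, -⟩ := exists_psi G M hM F
  have : Finite M.Group := Finite.of_equiv _ ψ.toEquiv
  have := Fintype.ofFinite M.Group
  obtain ⟨h1, h2⟩ := real_chev G M hM F
  refine Real.eq _ ?_ h2 (real_one _ h1)
  refine Set.infinite_of_injective_forall_mem (f := fun k : ℕ => ((2 : ℂ) ^ (k + 1))⁻¹) (fun a b h => ?_) fun k => ?_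
  · have h3 : ((2 ^ (a + 1) : ℕ) : ℂ) = ((2 ^ (b + 1) : ℕ) : ℂ) := by simpa using h
    have := Nat.pow_right_injective (le_refl 2) (Nat.cast_injective h3)
    omega
  · have := (real_chev G M hM (GaloisField 2 (k + 1))).2
    rw [GaloisField.card 2 (k + 1) (by omega)] at this
    exact ⟨_, by simpa using this⟩

end Cfsg.Agent.H14.Hk
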