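import Mathlib

/-!
# Lang's theorem for `GLₙ`: semilinear maps have spanning sets of fixed vectors
-/

set_option autoImplicit false

namespace Cfsg.Agent.H14.LangGL

open Polynomial

variable {K : Type*} [Field K] [IsAlgClosed K] {q : ℕ} {σ : K →+* K}

/-- The auxiliary polynomials. -/
noncomputable def Dp (q : ℕ) (a : ℕ → K) : ℕ → K[X]
  | 0 => C (a 0)
  | i + 1 => X ^ (q * (q - 1)) * Dp q a i ^ q + C (a (i + 1))

omit [IsAlgClosed K] in
theorem Dp_eq_zero (hq : 2 ≤ q) (a : ℕ → K) (m : ℕ) (h : Dp q a m = 0) : ∀ i ≤ m, a i = 0 := by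
  induction m with
  | zero =>
    intro i hi
    obtain rfl : i = 0 := by omega
    simpa [Dp] using h
  | succ m ih =>
    have hp : q * (q - 1) ≠ 0 := Nat.mul_ne_zero (by omega) (by omega)
    have h0 : a (m + 1) = 0 := by
      have := congrArg (eval 0) h
      simpa [Dp, hp] using this
    have h1 : Dp q a m = 0 := by
      simp only [Dp, h0, map_zero, add_zero, mul_eq_zero, pow_eq_zero_iff', X_ne_zero,
        false_and, false_or] at h
      exact h.1
    intro i hi
    rcases Nat.lt_or_ge i (m + 1) with h2 | h2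
    · exact ih h1 i (by omega)
    · obtain rfl : i = m + 1 := by omega
      exact h0

theorem exists_fixed (hq : 2 ≤ q) (hσ : ∀ x, σ x = x ^ q) {V : Type*} [AddCommGroup V] [Module K V]
    [Module.Finite K V] (φ : V →ₛₗ[σ] V) (hφ : Function.Injective φ) (v : V) (hv : v ≠ 0) :
    ∃ w : V, w ≠ 0 ∧ φ w = w := by
  classical
  have hex : ∃ k, ∃ a : ℕ → K, φ^[k] v = ∑ i ∈ Finset.range k, a i • φ^[i] v := by
    let U : ℕ →o Submodule K V :=
      ⟨fun k => Submodule.span K ((fun i => φ^[i] v) '' (Finset.range k : Set ℕ)),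
        fun k l h => Submodule.span_mono (Set.image_mono (by simpa using Set.Iio_subset_Iio h))⟩
    obtain ⟨k, hk⟩ := monotone_stabilizes_iff_noetherian.2 (inferInstance : IsNoetherian K V) U
    have h1 : φ^[k] v ∈ U (k + 1) := Submodule.subset_span ⟨k, by simp, rfl⟩
    rw [← hk (k + 1) (by omega)] at h1
    obtain ⟨a, ha⟩ := (Submodule.mem_span_image_finset_iff_exists_fun' K).1 h1
    exact ⟨k, a, ha.symm⟩
  obtain ⟨a, ha⟩ := Nat.find_spec hex
  have hmin := fun m (h : m < Nat.find hex) => Nat.find_min hex h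
  have hinj : ∀ k, φ^[k] v ≠ 0 := by
    intro k
    induction k with
    | zero => exact hv
    | succ k ih =>
      rw [Function.iterate_succ_apply']
      exact fun h => ih (hφ (by rw [h, map_zero]))
  generalize Nat.find hex = k at ha hmin
  obtain _ | m := k
  · exact absurd (by simpa using ha) hv
  have hD : Dp q a m ≠ 0 := by
    intro h
    apply hinj (m + 1)
    rw [ha]
    refine Finset.sum_eq_zero fun i hi => ?_
    rw [Dp_eq_zero hq a m h i (by simpa [Nat.lt_succ_iff] using hi), zero_smul]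
  obtain ⟨t, ht⟩ := IsAlgClosed.exists_root (X ^ (q - 1) * Dp q a m - 1) (by
    intro h
    have e := eq_C_of_degree_eq_zero h
    have h0 := congrArg (eval 0) e
    have hp : q - 1 ≠ 0 := by omega
    simp only [eval_sub, eval_mul, eval_pow, eval_X, zero_pow hp, zero_mul, eval_one, zero_sub,
      eval_C] at h0
    rw [← h0] at e
    have : X ^ (q - 1) * Dp q a m = 0 := by
      rw [sub_eq_iff_eq_add] at e
      rw [e]; simp
    simp [hD] at this)
  simp only [IsRoot.def, eval_sub, eval_mul, eval_pow, eval_X, eval_one, sub_eq_zero] at ht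
  have ht0 : t ≠ 0 := by
    rintro rfl
    rw [zero_pow (by omega), zero_mul] at ht
    exact zero_ne_one ht
  let c : ℕ → K := fun i => t ^ q * eval t (Dp q a i)
  have hqq : q = (q - 1) + 1 := by omega
  have cm : c m = t := by
    show t ^ q * _ = t
    rw [hqq, pow_succ', mul_assoc, ← hqq, ht, mul_one]
  have c0 : c 0 = t ^ q * a 0 := by simp [c, Dp]
  have cs : ∀ i, c (i + 1) = c i ^ q + t ^ q * a (i + 1) := by
    intro i
    simp only [c, Dp, eval_add, eval_mul, eval_pow, eval_X, eval_C, mul_pow, mul_add]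
    rw [← mul_assoc, ← pow_add, ← pow_mul]
    congr 3
    conv_lhs => rw [hqq]
    conv_rhs => rw [hqq]
    simp only [Nat.add_sub_cancel]
    ring
  refine ⟨∑ i ∈ Finset.range (m + 1), c i • φ^[i] v, fun h => ?_, ?_⟩
  · refine hmin m (by omega) ⟨fun i => -(t⁻¹ * c i), ?_⟩
    rw [Finset.sum_range_succ, cm] at h
    have : φ^[m] v = t⁻¹ • (t • φ^[m] v) := by rw [smul_smul, inv_mul_cancel₀ ht0, one_smul]
    rw [this, eq_neg_of_add_eq_zero_right h, smul_neg, Finset.smul_sum, ← Finset.sum_neg_distrib]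
    refine Finset.sum_congr rfl fun i _ => ?_
    rw [smul_smul, neg_smul]
  · rw [map_sum]
    simp only [map_smulₛₗ, hσ, ← Function.iterate_succ_apply' φ, Nat.succ_eq_add_one]
    rw [Finset.sum_range_succ, cm, ha, Finset.sum_range_succ', Finset.sum_range_succ', smul_add,
      Finset.smul_sum, ← add_assoc, ← Finset.sum_add_distrib, c0, smul_smul]
    congr 1
    refine Finset.sum_congr rfl fun i _ => ?_
    rw [cs, add_smul, smul_smul]

theorem span_fixed (hq : 2 ≤ q) (hσ : ∀ x, σ x = x ^ q) {V : Type*} [AddCommGroup V] [Module K V]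
    [Module.Finite K V] (φ : V →ₛₗ[σ] V) (hφ : Function.Injective φ) :
    Submodule.span K {w | φ w = w} = ⊤ := by
  set W := Submodule.span K {w | φ w = w} with hW
  have h1 : ∀ w ∈ W, φ w ∈ W ∧ (∃ u ∈ W, φ u = w) ∧ ∀ c : K, ∃ u ∈ W, φ u - u = c • w := by
    intro w hw
    induction hw using Submodule.span_induction with
    | mem x hx =>
      have hxW : x ∈ W := Submodule.subset_span hx
      have hx' : φ x = x := hx
      refine ⟨by rw [hx']; exact hxW, ⟨x, hxW, hx⟩, fun c => ?_⟩
      obtain ⟨d, hd⟩ := IsAlgClosed.exists_root (X ^ q - (X + C c) : K[X]) (by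
        rw [degree_sub_eq_left_of_degree_lt]
        · simp; omega
        · rw [degree_X_add_C, degree_X_pow]; exact_mod_cast hq)
      simp only [IsRoot.def, eval_sub, eval_pow, eval_X, eval_add, eval_C] at hd
      refine ⟨d • x, W.smul_mem _ hxW, ?_⟩
      rw [map_smulₛₗ, hx', hσ, ← sub_smul]
      congr 1
      linear_combination hd
    | zero => exact ⟨by simp, ⟨0, by simp, by simp⟩, fun c => ⟨0, by simp, by simp⟩⟩
    | add x y _ _ hx hy =>
      obtain ⟨a1, ⟨u1, hu1, e1⟩, b1⟩ := hx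
      obtain ⟨a2, ⟨u2, hu2, e2⟩, b2⟩ := hy
      refine ⟨by rw [map_add]; exact add_mem a1 a2, ⟨u1 + u2, add_mem hu1 hu2, by
        rw [map_add, e1, e2]⟩, fun c => ?_⟩
      obtain ⟨v1, hv1, f1⟩ := b1 c
      obtain ⟨v2, hv2, f2⟩ := b2 c
      exact ⟨v1 + v2, add_mem hv1 hv2, by rw [map_add, smul_add, ← f1, ← f2]; abel⟩
    | smul a x _ hx =>
      obtain ⟨a1, ⟨u1, hu1, e1⟩, b1⟩ := hx
      obtain ⟨b, hb⟩ := IsAlgClosed.exists_pow_nat_eq a (by omega : 0 < q)
      refine ⟨by rw [map_smulₛₗ]; exact W.smul_mem _ a1, ⟨b • u1, W.smul_mem _ hu1, by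
        rw [map_smulₛₗ, hσ, hb, e1]⟩, fun c => ?_⟩
      rw [smul_smul]
      exact b1 _
  by_contra hne
  obtain ⟨v, hv⟩ : ∃ v, v ∉ W := by
    by_contra h
    push Not at h
    exact hne (Submodule.eq_top_iff'.2 h)
  let ψ : (V ⧸ W) →ₛₗ[σ] (V ⧸ W) := W.mapQ W φ fun w hw => (h1 w hw).1
  have hψ : Function.Injective ψ := by
    rw [injective_iff_map_eq_zero]
    intro x hx
    obtain ⟨x, rfl⟩ := W.mkQ_surjective x
    have : φ x ∈ W := by simpa [ψ] using hx
    obtain ⟨u, hu, e⟩ := (h1 _ this).2.1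
    rw [← hφ e]
    simpa using hu
  obtain ⟨w, hw0, hw⟩ := exists_fixed hq hσ ψ hψ (W.mkQ v) (by simpa using hv)
  obtain ⟨w, rfl⟩ := W.mkQ_surjective w
  have h2 : φ w - w ∈ W := by
    rw [← Submodule.Quotient.eq]
    simpa [ψ] using hw
  obtain ⟨u, hu, e⟩ := (h1 _ h2).2.2 1
  rw [one_smul] at e
  have h3 : w - u ∈ W := Submodule.subset_span (show φ (w - u) = w - u by
    rw [map_sub, sub_eq_sub_iff_sub_eq_sub, ← e])
  apply hw0
  simpa using add_mem h3 hu

theorem lang (hq : 2 ≤ q) (hσ : ∀ x, σ x = x ^ q) (n : ℕ) (g : GL (Fin n) K) :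
    ∃ x : GL (Fin n) K, g = x * (Matrix.GeneralLinearGroup.map σ x)⁻¹ := by
  classical
  let φ : (Fin n → K) →ₛₗ[σ] (Fin n → K) :=
    { toFun := fun v => (g : Matrix (Fin n) (Fin n) K).mulVec fun i => σ (v i)
      map_add' := fun v w => by
        rw [← Matrix.mulVec_add]; congr 1; funext i; simp
      map_smul' := fun c v => by
        rw [← Matrix.mulVec_smul]; congr 1; funext i; simp }
  have hφ : Function.Injective φ := by
    intro v w h
    have h1 := Matrix.mulVec_injective_of_isUnit (Units.isUnit g) h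
    funext i
    exact σ.injective (congrFun h1 i)
  have hs := span_fixed hq hσ φ hφ
  obtain ⟨b, hb, hbs, hbi⟩ := exists_linearIndependent K {w | φ w = w}
  rw [hs] at hbs
  let B : Module.Basis b K (Fin n → K) := Module.Basis.mk hbi (by simp [hbs])
  let e : b ≃ Fin n := B.indexEquiv (Pi.basisFun K (Fin n))
  let x : Matrix (Fin n) (Fin n) K := Matrix.of fun i j => (e.symm j).1 i
  have hx : IsUnit x := by
    rw [← Matrix.linearIndependent_cols_iff_isUnit]
    exact hbi.comp e.symm e.symm.injective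
  refine ⟨hx.unit, ?_⟩
  rw [eq_mul_inv_iff_mul_eq]
  ext i j
  have h1 : φ (e.symm j).1 = (e.symm j).1 := hb (e.symm j).2
  have h2 := congrFun h1 i
  simpa [φ, x, Matrix.mul_apply, Matrix.mulVec, dotProduct] using h2

end Cfsg.Agent.H14.LangGL
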