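import Cfsg.Agent.H14.Mu9

/-! The Schur multiplier of the large Ree groups. -/

set_option autoImplicit false
set_option linter.style.haveILetI false

namespace Cfsg.Agent.H14.Mu

open Cfsg.Agent.H15 Cfsg.Agent.H27 Subgroup Cfsg.Lie Cfsg.Lie.ChevalleyDatum
open scoped commutatorElement

variable {K : Type*} [Field K] [CharP K 2]

def lF (r : Fin 48) : ℕ := getW 8 256 0x10200030506010203040507080904070a060a0b080b096d6f6c6f6e6a6e6b686d6c6b69686766656a696764666564 r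

def bk (r : Fin 48) : ℕ := getW 8 256 0x402030405060402030501060206070102000400000600070f080e08080c080a090f0e0a0e090d0b0a0c0e0d0c0b0a0c r

def coF (i : Fin 4) (r : Fin 48) : ℕ := getW 8 256 0x20101010101000101010001000000010100010000010001000000000000000000000000000000000000000000000000030302020201010202010101010000020101010100010100000000000000000000000000000000000000000000000000040404030202020302020201010100020202010101000000000000000000000000000000000000000000000000000000020202020202020101010101010101000000000000000000000000000000000000000000000000000000000000000000 (48 * i + r)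

def vF (b : ℕ) : Fin 4 → ℤ := fun a => getW 8 256 0x102000001010100010201000000010001000000010100000100010000010101 (4 * b + a)

def exF (v : Fin 4 → ℤ) (r : Fin 48) : ℤ := ∑ a : Fin 4, v a * chevF4.cartan a r

def twF (v : Fin 4 → ℤ) : Fin 4 → ℤ := ![v 3, v 2, 2 * v 1, 2 * v 0]

theorem posL (r : Fin 48) : RF.pos r ↔ lF r < 12 := (goodF4.isPosRoot_iff r).symm.trans (by revert r; decide +kernel)

theorem posB (r : Fin 48) : RF.pos r ↔ bk r < 8 := (goodF4.isPosRoot_iff r).symm.trans (by revert r; decide +kernel)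

theorem lv_F4 : Lv (XF K) lF := by
  refine ⟨fun r s k a b c => ?_, fun r s a b t u => ?_⟩
  · by_contra! e
    obtain ⟨i, hi⟩ := (by decide +kernel : ∀ r, lF r < 12 → ∀ s, lF s < 12 → ∀ k, lF r < lF k → lF s < lF k → lF k < 12 →
      ∃ i, coF i k < coF i r + coF i s) r ((posL r).1 a) s ((posL s).1 b) k e.1 e.2 ((posL k).1 (RS.comb_pos c a b))
    have h1 : ∀ r, RF.pos r → fL goodF4 (([0, 1, 2, 3] : List (Fin 4)).map fun a =>
        (![![2, 3, 4, 2], ![3, 6, 8, 4], ![2, 4, 6, 3], ![1, 2, 3, 2]] i a, a)) (RF.vec r) = coF i r := fun r hr =>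
      (fL_apply goodF4 _ r).trans ((by decide +kernel : ∀ (i : Fin 4) (r : Fin 48), lF r < 12 → ((([0, 1, 2, 3] : List (Fin 4)).map fun a =>
        (![![2, 3, 4, 2], ![3, 6, 8, 4], ![2, 4, 6, 3], ![1, 2, 3, 2]] i a, a)).map fun p : ℤ × Fin 4 =>
          p.1 * chevF4.cartan p.2 r).sum = coF i r) i r ((posL r).1 hr))
    have := ((congrArg₂ (· + ·) (h1 r a) (h1 s b)).symm.trans_le (RS.comb_f_ge _ c ((Int.natCast_nonneg _).trans_eq (h1 r a).symm)
      ((Int.natCast_nonneg _).trans_eq (h1 s b).symm))).trans_eq (h1 k (RS.comb_pos c a b))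
    omega
  · by_cases e : r = s
    · rw [e, commutatorElement_def, ← (XF K).x_add, add_comm, (XF K).x_add]; simp
    obtain ⟨h1, h2⟩ := (by decide +kernel : ∀ r, lF r < 12 → ∀ s, lF s < 12 → r ≠ s → r.val ≠ chevF4.neg s ∧
      ∀ c ∈ redL 2 (chevF4.commTerms s r), ∃ k : Fin 48, k.val = c.1 ∧ lF k < lF s) r ((posL r).1 a) s ((posL s).1 b) e
    have := chev_xN goodF4 (K := K) s.2 r.2 (fun c => e (Fin.ext c)) h1 (-u) (-t)
    rw [commWord, ← wordX_redL _ (p := 2) CharTwo.two_eq_zero, xF, xF, (XF K).x_neg, (XF K).x_neg, ← inv_mul_eq_iff_eq_mul] at this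
    rw [show ⁅(XF K).x r t, (XF K).x s u⁆ = _ from (by group : _ = _).trans this]
    refine list_prod_mem fun g hg => ?_
    simp only [List.map_map, List.mem_map] at hg
    obtain ⟨c, hc, rfl⟩ := hg
    obtain ⟨k, h3, h4⟩ := h2 c hc
    rw [Function.comp_apply, ← h3, xF]
    exact (XF K).x_mem_gen (S := LS RF lF (lF s)) ⟨(posL k).2 (h4.trans ((posL s).1 b)), h4⟩ _

theorem glF_ne {w : List ℕ} (h : decide ((∀ r ∈ w, r < chevF4.nroots) ∧ wrk chevF4 w ≠ 0) = true) : gl goodF4 K w ≠ 1 := fun e => by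
  obtain ⟨h1, h2⟩ := of_decide_eq_true h
  have := rank_word (F := K) goodF4 bridgeF4 (by decide) h1
  rw [← gw_val goodF4 K w, show gw goodF4 K w = 1 from Subtype.ext e] at this
  exact h2 (by simpa using this.symm)

omit [CharP K 2] in
theorem glF_mem (L : List (Fin 48)) {j : ℕ} (h : ∀ r ∈ L, bk r = j) (hj : j < 8) :
    gl goodF4 K (L.map Fin.val) ∈ (XF K).gen (LO RF bk j) :=
  glF (K := K) L ▸ (XF K).prodL_mem (S := LO RF bk j) (fun r hr => ⟨(posB r).2 (h r hr ▸ hj), h r hr⟩) 1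

def wF (k : Fin 2) (r : Fin 48) : Fin 48 := Fin.ofNat 48 (wrefl chevF4 (![[0, 3], [1, 2, 1, 2]] k) r)

variable [Finite K] {S : TwO (XF K) (Fin 2)} {θ : K →+* K} (h : H15.IsF4 S θ)
include h

theorem sepF (hK : ∃ y : K, y ≠ 0 ∧ y ≠ 1) {b : ℕ} (hb : b < 8) : ∃ t ∈ HT S, Fx (XF K) t (LO RF bk b) ∧
    ∀ A : Set (Fin 48), (∀ r ∈ A, RF.pos r ∧ bk r ≠ b) → Fp (XF K) t A := by
  obtain ⟨y, y0, y1⟩ := hK
  lift y to Kˣ using y0.isUnit
  let z := Units.map (θ : K →* K) y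
  have e : ∀ r : Fin 48, ∏ a : Fin 4, (y ^ vF b a * z ^ twF (vF b) a) ^ chevF4.cartan a r =
      y ^ exF (vF b) r * z ^ exF (twF (vF b)) r := fun r => by
    simp only [mul_zpow, Finset.prod_mul_distrib, prod_zpow_mul]; rfl
  have c := (by decide +kernel : ∀ b < 8, ∀ r, bk r < 8 → (bk r = b → exF (vF b) r = 0 ∧ exF (twF (vF b)) r = 0) ∧
    (bk r ≠ b → ∃ k < 4, (2 * (exF (vF b) r * exF (vF b) r) - exF (twF (vF b)) r * exF (twF (vF b)) r).natAbs = 2 ^ k)) b hb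
  have m := h.H_eq.ge ⟨fun a => y ^ vF b a * z ^ twF (vF b) a, h.mem_CFix.2 (by
    simp [twF, z, zpow_mul, zpow_ofNat, h.θθ, mul_comm]), rfl⟩
  refine ⟨⟨_, m.2⟩, m.1, fun r hr => tor_fx goodF4 ((e r).trans ?_), fun A hA r hr => torF_ne ((e r).trans_ne fun e' => ?_)⟩
  · simp [(c r (hr.2 ▸ hb)).1 hr.2]
  · obtain ⟨k, -, c⟩ := (c r ((posB r).1 (hA r hr).1)).2 (hA r hr).2
    generalize exF (vF b) r = m, exF (twF (vF b)) r = n at c e'
    have a1 : z ^ (2 * m) * y ^ n = 1 := Units.ext (by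
      have := congrArg (fun a : Kˣ => θ a ^ 2) e'
      simp only [z, Units.val_mul, Units.val_zpow_eq_zpow_val, Units.coe_map, MonoidHom.coe_coe, map_mul, map_zpow₀, mul_pow,
        Units.val_one, map_one, one_pow] at this ⊢
      rw [← zpow_natCast (θ (θ y) ^ n), zpow_comm, zpow_natCast, h.θθ, ← zpow_natCast, ← zpow_mul, mul_comm m] at this
      exact this)
    have a2 : y ^ (2 * (m * m) - n * n) = 1 := by
      rw [zpow_sub, ← mul_assoc, mul_comm _ m, zpow_mul, zpow_mul y, eq_inv_of_mul_eq_one_left e',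
        eq_inv_of_mul_eq_one_right a1, inv_zpow, inv_zpow, ← zpow_mul, ← zpow_mul, mul_comm n, mul_inv_cancel]
    rw [← orderOf_dvd_iff_zpow_eq_one, Int.natCast_dvd, c, orderOf_dvd_iff_pow_eq_one] at a2
    exact y1 ((iterateFrobenius K 2 k).injective (by simpa [iterateFrobenius_def] using congrArg Units.val a2))

omit [Finite K]

theorem wJF (k : Fin 2) (r : Fin 48) : S.wJ k r = wF k r := Fin.ext (by
  rw [h.wJ_eq', wpF]; revert k r; decide +kernel)

theorem cjF {n : S.T} {k : Fin 2} (hn : (XF K).Rep n (S.wJ k)) {f : Fin 48 → ℕ} {m i j : ℕ} (hf : ∀ r, RF.pos r ↔ f r < m)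
    (e : i < m ∧ j < m ∧ ∀ r, f r = i ↔ f (wF k r) = j) : Cj n (CO S f i) (CO S f j) := by
  have : S.wJ k '' LO RF f i = LO RF f j := by
    ext s
    obtain ⟨r, rfl⟩ := (S.wJ k).surjective s
    rw [(S.wJ k).injective.mem_set_image, wJF h]
    exact ⟨fun a => ⟨(hf _).2 (((e.2.2 r).1 a.2).trans_lt e.2.1), (e.2.2 r).1 a.2⟩,
      fun a => ⟨(hf _).2 (((e.2.2 r).2 a.2).trans_lt e.1), (e.2.2 r).2 a.2⟩⟩
  rw [CO, CO, ← this]; exact cj_gen hn _

theorem PJB (k : Fin 2) (r : Fin 48) : r ∈ PJ RF (S.J k) ↔ bk r = ![7, 0] k := by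
  rw [TwO.J, h.o]
  exact (mem_PJ_iff goodF4 r).trans ((by decide +kernel : ∀ k (r : Fin 48), (chevF4.IsPosRoot r ∧
    ∀ i : Fin 4, oF i ≠ k → (chevF4.coroot.getD r #[]).getD i 0 = 0) ↔ bk r = ![7, 0] k) k r)

theorem bsF (k : Fin 2) : (bs S k).sg = CO S bk (![7, 0] k) := by
  rw [Blk.sg, bs_set]
  congr 2
  ext r
  exact ⟨fun a => ⟨a.1, (PJB h k r).1 a⟩, fun a => (PJB h k r).2 a.2⟩

theorem blkF (a : Blk S) (ha : a.pos) : ∃ b < 8, a.sg = CO S bk b := by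
  obtain ⟨r, hr⟩ := set_nonempty a
  have h1 := (posB r).1 (ha r hr)
  refine ⟨_, h1, ?_⟩
  rw [Blk.sg, set_eq_fiber (bk := bk) (fun k r s => by rw [wJF h, wJF h]; revert k r s; decide +kernel)
    (fun k r hr s => by rw [PJB h] at hr ⊢; rw [hr]) a hr]
  congr 2
  ext s
  exact ⟨fun e => ⟨(posB s).2 (e.trans_lt h1), e⟩, fun e => e.2⟩

variable [Finite K]

theorem exists_b : ∃ b : K → K → S.T, (∀ g, g ∈ CO S bk 0 ↔ ∃ t u, b t u = g) ∧
    (∀ t u t' u', b t u * b t' u' = b (t + t') (u + u' + θ t * t')) ∧ b 0 0 = 1 ∧ (∀ u, b 0 u ∈ CO S lF 10) ∧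
    ∀ c, c ≠ 0 → ∃ n ∈ HT S, ∀ t u, n * b t u * n⁻¹ = b (c * t) (θ c * c * u) := by
  refine ⟨fun t u => ⟨_, S.XP_le _ ((h.P1 _).2 ⟨t, u, rfl⟩)⟩, fun g => ?_, fun t u t' u' => Subtype.ext (bF_mul θ h.θθ t u t' u'),
    Subtype.ext (bF_zero θ), fun u => ?_, fun c hc => ?_⟩
  · rw [← show _ = CO S bk 0 from bsF h 1, mem_bs, h.P1]
    simp [Subtype.ext_iff, eq_comm]
  · simp only [mem_subgroupOf, bF, map_zero, RG0.x_zero, one_mul]
    exact mul_mem ((XF K).x_mem_gen (S := LO RF lF 10) ⟨(posL _).2 (by decide +kernel), by decide +kernel⟩ _)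
      ((XF K).x_mem_gen (S := LO RF lF 10) ⟨(posL _).2 (by decide +kernel), by decide +kernel⟩ _)
  lift c to Kˣ using hc.isUnit
  have m := h.H_eq.ge ⟨![Units.map (θ : K →* K) c⁻¹, 1, 1, c⁻¹], h.mem_CFix.2 ⟨by simp, by simp⟩, rfl⟩
  refine ⟨⟨_, m.2⟩, m.1, fun t u => Subtype.ext ?_⟩
  have e : ∀ r ∈ ([27, 25, 28, 30] : List (Fin 48)), ∀ a b : ℤ, chevF4.cartan (0 : Fin 4) r = -a →
      chevF4.cartan (3 : Fin 4) r = -b → ∀ s, MulAut.conj (torF K ![Units.map (θ : K →* K) c⁻¹, 1, 1, c⁻¹]) ((XF K).x r s) =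
        (XF K).x r (θ c ^ a * c ^ b * s) := fun r _ a b h1 h2 s => by
    rw [MulAut.conj_apply, torF_conj, Fin.prod_univ_four, h1, h2]; simp
  change MulAut.conj _ (bF θ t u) = bF θ _ _
  rw [bF, map_mul, map_mul, map_mul, e 27 (by simp) 1 0 (by decide +kernel) (by decide +kernel),
    e 25 (by simp) 0 1 (by decide +kernel) (by decide +kernel), e 28 (by simp) 1 1 (by decide +kernel) (by decide +kernel),
    e 30 (by simp) 2 1 (by decide +kernel) (by decide +kernel), bF]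
  congr 3
  · simp
  · simp
  · congr 1; simp; ring
  · simp [mul_pow, h.θθ, zpow_two, pow_two (θ c), mul_comm]

theorem szL {n : S.T} (hn : (n : GL chevF4.Idx K) ∈ (XF K).N) {C L : Subgroup S.T} (c : Cj n (CO S bk 0) C)
    (hL : ∀ t ∈ HT S, ∀ y ∈ L, t * y * t⁻¹ ∈ L) {g : S.T} (h1 : g ∈ C) (h2 : g ∈ L) (h3 : g * g ≠ 1) : C ≤ L := fun y hy => by
  obtain ⟨b, b1, b2, b3, -, b5⟩ := exists_b h
  obtain ⟨s, u, e⟩ := (b1 _).1 (c.mem' h1)
  obtain rfl : g = n * b s u * n⁻¹ := by rw [e]; group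
  have s0 : s ≠ 0 := by
    rintro rfl
    exact h3 (by simp [b2, CharTwo.add_self_eq_zero, b3])
  have a1 : ∀ t, t ≠ 0 → ∃ v, n * b t v * n⁻¹ ∈ L := fun t ht => by
    obtain ⟨m, hm, e⟩ := b5 (t / s) (div_ne_zero ht s0)
    have := hL (n * m * n⁻¹) ((XF K).conj_mem_H hn hm) _ h2
    rw [show n * m * n⁻¹ * (n * b s u * n⁻¹) * (n * m * n⁻¹)⁻¹ = n * (m * b s u * m⁻¹) * n⁻¹ by group, e, div_mul_cancel₀ _ s0] at this
    exact ⟨_, this⟩
  have a2 : ∀ v, n * b 0 v * n⁻¹ ∈ L := fun v => by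
    obtain ⟨t, rfl⟩ := h.exists_norm v
    by_cases ht : t = 0
    · simp [ht, b3]
    obtain ⟨v, e⟩ := a1 t ht
    simpa [b2, CharTwo.add_self_eq_zero] using mul_mem e e
  obtain ⟨t, v, e⟩ := (b1 _).1 (c.mem' hy)
  rw [show y = n * b t v * n⁻¹ by rw [e]; group]
  by_cases ht : t = 0
  · exact ht ▸ a2 v
  obtain ⟨w, e⟩ := a1 t ht
  simpa [b2, CharTwo.add_self_eq_zero, ← add_assoc] using mul_mem e (a2 (w + v))

theorem closedAt_F4 (hK : 4 < Nat.card K) (hK' : ∃ y : K, y ≠ 0 ∧ y ≠ 1) (h9 : Nat.card K ≠ 9) : ClosedAt 2 S.T := by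
  haveI := h.finite
  have L : Lv (XF K) lF := lv_F4
  obtain ⟨n0, -, N0, r0⟩ := exists_nk (S := S) 0
  obtain ⟨n1, -, N1, r1⟩ := exists_nk (S := S) 1
  have j1 : Cj n1 (CO S bk 1) (CO S bk 7) := cjF h r1 posB (by decide +kernel)
  have j5 : Cj n0 (CO S bk 5) (CO S bk 1) := cjF h r0 posB (by decide +kernel)
  have j3 : Cj n1 (CO S bk 3) (CO S bk 5) := cjF h r1 posB (by decide +kernel)
  have j6 : Cj n0 (CO S bk 0) (CO S bk 6) := cjF h r0 posB (by decide +kernel)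
  have j2 := (cjF h r1 posB (j := 2) (by decide +kernel)).mul j6
  have j4 := (cjF h r0 posB (j := 4) (by decide +kernel)).mul j2
  have j0 : Cj (n0 * (n1 * n0)) (CO S lF 10) (CO S lF 0) := (cjF h r0 posL (i := 1) (by decide +kernel)).mul
    ((cjF h r1 posL (i := 5) (by decide +kernel)).mul (cjF h r0 posL (by decide +kernel)))
  obtain ⟨b, b1, b2, b3, b4, b5⟩ := exists_b h
  have CU : ∀ i, CO S bk i ≤ UT S := fun i => (CO_le (Nat.lt_succ_self i)).trans (AL_le_U _ _)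
  have mk : ∀ (l : List (Fin 48)) (i : ℕ), i < 8 ∧ (∀ r ∈ l, bk r = i) ∧ ((∀ r ∈ (l.map Fin.val).map morF4.ρ ++ l.map Fin.val,
      r < chevF4.nroots) ∧ wmat chevF4 ((l.map Fin.val).map morF4.ρ) = wmat chevF4 (l.map Fin.val)) →
      ∃ y ∈ CO S bk i, y.val = gl goodF4 K (l.map Fin.val) :=
    fun l i c => ⟨⟨_, h.gl_mem (decide_eq_true c.2.2)⟩, glF_mem l c.2.1 c.1, rfl⟩
  obtain ⟨y7, c7, e7⟩ := mk [33, 24] 7 (by decide +kernel)
  obtain ⟨y0, c0, e0⟩ := mk [27, 25, 28] 0 (by decide +kernel)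
  obtain ⟨z0, d0, f0⟩ := mk [28, 25, 27] 0 (by decide +kernel)
  obtain ⟨y1, c1, e1⟩ := mk [32, 37] 1 (by decide +kernel)
  obtain ⟨y2, c2, e2⟩ := mk [35, 31, 40] 2 (by decide +kernel)
  obtain ⟨z2, d2, f2⟩ := mk [40, 46] 2 (by decide +kernel)
  obtain ⟨y4, c4, e4⟩ := mk [41, 29, 47] 4 (by decide +kernel)
  obtain ⟨z4, d4, f4⟩ := mk [44, 47] 4 (by decide +kernel)
  obtain ⟨y5, c5, e5⟩ := mk [38, 43] 5 (by decide +kernel)
  obtain ⟨y6, c6, e6⟩ := mk [34, 26, 36] 6 (by decide +kernel)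
  obtain ⟨z6, d6, f6⟩ := mk [34, 26, 42] 6 (by decide +kernel)
  have ce : ∀ {a b c : S.T}, a * b = c * (b * a) → ⁅a, b⁆ = c := fun e => by rw [commutatorElement_def, e]; group
  have k1 : ⁅y7, y0⁆ = y1 * y2 * (z4 * y5 * y6) := ce (Subtype.ext (by
    simp only [coe_mul, e0, e1, e2, f4, e5, e6, e7, ← gl_append]; exact glF_eq (by decide +kernel)))
  have k2 : ⁅y7, z0⁆ = y1 * z2 * y4 * z6 := ce (Subtype.ext (by
    simp only [coe_mul, f0, e1, f2, e4, f6, e7, ← gl_append]; exact glF_eq (by decide +kernel)))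
  have ne : ∀ {y : S.T} {w}, y.val = gl goodF4 K w → decide ((∀ r ∈ w ++ w, r < chevF4.nroots) ∧ wrk chevF4 (w ++ w) ≠ 0) = true →
      y * y ≠ 1 := fun e c e' => glF_ne c (by rw [gl_append, ← e]; exact congrArg Subtype.val e')
  refine closedAt_of_spl 2 fun Γ _ _ σ hs hc _ => spl_of_steps (fun r => (posL r).1) fun j hj hS => ?_
  have l7 : CL σ (CO S bk 7) (CO S bk 7) := bsF h 0 ▸ cl_st hs hc _ (nodF h).mem_x hK.ne' h9
  have l1 := l7.cj hs (fun _ => j1.mem) fun _ => j1.mem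
  have l5 := l1.cj hs (fun _ => j5.mem) fun _ => j5.mem
  have l3 := l5.cj hs (fun _ => j3.mem) fun _ => j3.mem
  obtain ⟨i, hi, e, e'⟩ := (by decide +kernel : ∀ j < 12, ∃ i < 8, (∀ r, lF r = j → bk r = i) ∧
    ((i ∈ [7, 1, 5, 3] ∧ ∀ r, bk r = i → lF r < j + 1) ∨ i = 2 ∨ i = 4 ∨ i = 6 ∨ i = 0 ∧ (j = 10 ∨ j = 11))) j hj
  have fp : ∀ i' < 8, i' ≠ i → ∃ t ∈ HT S, Fx (XF K) t (LO RF bk i') ∧ Fp (XF K) t (LO RF lF j) := fun i' h1 h2 =>
    let ⟨t, a1, a2, a3⟩ := sepF h hK' h1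
    ⟨t, a1, a2, a3 _ fun r hr => ⟨hr.1, (e r hr.2).trans_ne h2.symm⟩⟩
  refine L.step hs hc hS (let ⟨t, a1, _, a2⟩ := fp ((i + 1) % 8) (by omega) (by omega); ⟨t, a1, t.2, a2⟩) fun β P => ?_
  have o : ∀ i' < 8, i' ≠ i → CO S bk i' ≤ lk P := fun i' h1 h2 g hg =>
    let ⟨_, a1, a2, a3⟩ := fp i' h1 h2
    L.sep1 P a1 a3 (CU _ hg) (Subtype.ext (a2.conj a1 hg))
  have o' : ∀ a : Blk S, a.pos → a.sg ≤ lk P ∨ a.sg ≤ CO S bk i := fun a ha => by
    obtain ⟨i', h1, h2⟩ := blkF h a ha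
    exact h2 ▸ (ne_or_eq i' i).imp (o i' h1) fun c => (congrArg _ c).le
  suffices CO S bk i ≤ lk P from fun a ha => (o' a ha).elim id (·.trans this)
  have hL := fun t ht y => conj_mem_lk P BT_U (L.BT_A _) (g := y) ((XF K).H_le_B (show (t : S.T) ∈ HT S from ht))
  have m1 := k1 ▸ comm_mem_lk hc P (CU _ c7) (CU _ c0)
  have m2 := k2 ▸ comm_mem_lk hc P (CU _ c7) (CU _ d0)
  rcases e' with ⟨a1, a2⟩ | rfl | rfl | rfl | ⟨rfl, rfl | rfl⟩
  · have a3 : CO S bk i ≤ AL S lF (j + 1) := fun _ hy => (XF K).gen_mono (T := LS RF lF _) (fun r hr => ⟨hr.1, a2 r hr.2⟩) hy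
    refine self_le hs (AL_le_U _ _) P a3 (CL.pairing hs P ?_ (CU _) a3) o'
    simp only [List.mem_cons, List.not_mem_nil, or_false] at a1
    rcases a1 with rfl | rfl | rfl | rfl <;> assumption
  · exact szL h (mul_mem N1 N0) j2 hL c2 ((mul_mem_cancel_left (o 1 (by simp) (by simp) c1)).1 ((mul_mem_cancel_right
      (mul_mem (mul_mem (o 4 (by simp) (by simp) d4) (o 5 (by simp) (by simp) c5)) (o 6 (by simp) (by simp) c6))).1 m1))
      (ne e2 (by decide +kernel))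
  · exact szL h (mul_mem N0 (mul_mem N1 N0)) j4 hL c4 ((mul_mem_cancel_left (mul_mem (o 1 (by simp) (by simp) c1)
      (o 2 (by simp) (by simp) d2))).1 ((mul_mem_cancel_right (o 6 (by simp) (by simp) d6)).1 m2)) (ne e4 (by decide +kernel))
  · exact szL h N0 j6 hL c6 ((mul_mem_cancel_left (mul_mem (o 4 (by simp) (by simp) d4) (o 5 (by simp) (by simp) c5))).1
      ((mul_mem_cancel_left (mul_mem (o 1 (by simp) (by simp) c1) (o 2 (by simp) (by simp) c2))).1 m1)) (ne e6 (by decide +kernel))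
  · have l4 : CL σ (CO S bk 4) (CO S lF 0) := fun p q hp hq => Splt.commute hc hS ((XF K).U_le_B (CU _ hp)) (CO_le (by simp) hq)
      (commutatorElement_eq_one_iff_commute.1 (Subtype.ext (show ⁅(σ p).val, (σ q).val⁆ = 1 by
        simpa [LS] using L.comm 0 (CU _ hp) (CO_le (Nat.lt_succ_self 0) hq))))
    refine le_lk_of_dec P (AL_mono (Nat.le_succ _)) (CO_le (Nat.lt_succ_self _)) (CU _) (L.dec h.Fix_le (fun r => ?_) ?_)
      ((l4.cj hs (fun _ => j4.mem) fun _ => j0.mem).pairing hs P (CU _) (CO_le (Nat.lt_succ_self _)))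
    · rw [show S.ρ r = Fin.ofNat 48 (morF4.ρ r) from Fin.ext (by rw [h.ρ_val]; revert r; decide +kernel)]
      revert r; decide +kernel
    · intro r hr s hs k hk
      have b := fL_apply goodF4 ([(1, 1), (2, 2)] : List (ℤ × Fin 4))
      obtain ⟨c1, c2⟩ := (by decide +kernel : (∀ r : Fin 48, lF r = 10 → 2 ≤ (([(1, 1), (2, 2)] : List (ℤ × Fin 4)).map
        fun p => p.1 * chevF4.cartan p.2 r).sum) ∧ ∀ r : Fin 48, (([(1, 1), (2, 2)] : List (ℤ × Fin 4)).map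
        fun p => p.1 * chevF4.cartan p.2 r).sum < 4)
      have a1 := (c1 r hr.2).trans_eq (b r).symm
      have a2 := (c1 s hs.2).trans_eq (b s).symm
      exact absurd ((add_le_add a1 a2).trans (RS.comb_f_ge _ hk (zero_le_two.trans a1) (zero_le_two.trans a2)))
        ((b k).trans_lt (c2 k)).not_ge
  · have a3 : CO S bk 0 ≤ AL S lF (11 + 1) := fun _ hy => (XF K).gen_mono (T := LS RF lF _) (fun r hr => ⟨hr.1, (posL r).1 hr.1⟩) hy
    have m : ∀ t u, b t u ∈ CO S bk 0 := fun t u => (b1 _).2 ⟨t, u, rfl⟩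
    have z : ∀ u, b 0 u ∈ AL S lF 11 := fun u => CO_le (by simp) (b4 u)
    have z' := fun u => (le_lk hs P (AL_mono (Nat.le_succ _)) (AL_le_U _ _) (z u)).2
    have sp : ∀ t u, b t u = b t 0 * b 0 u := fun t u => by simp [b2]
    have sa : ∀ t t', b (t + t') 0 = b t 0 * b t' 0 * b 0 (θ t * t') := fun t t' => by simp [b2, CharTwo.add_self_eq_zero]
    letI := kerCommGroup hc
    obtain ⟨B, hB⟩ := P.exists_biadd hc (b · 0) (b · 0)
      (fun s s' t => by rw [sa, P.mul_left _ (CU _ (mul_mem (m _ _) (m _ _))) _ (CU _ (m _ _)) _ (a3 (m _ _)),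
        z' _ _ (a3 (m _ _)), mul_one, P.mul_left _ (CU _ (m _ _)) _ (CU _ (m _ _)) _ (a3 (m _ _))])
      (fun s t t' => by rw [sa, P.mul_right _ (CU _ (m _ _)) _ (a3 (mul_mem (m _ _) (m _ _))) _ (a3 (m _ _)),
        P.triv _ (CU _ (m _ _)) _ (z _), mul_one, P.mul_right _ (CU _ (m _ _)) _ (a3 (m _ _)) _ (a3 (m _ _))])
    refine self_le hs (AL_le_U _ _) P a3 (fun g hg y hy => ?_) o'
    obtain ⟨s, u, rfl⟩ := (b1 g).1 hg
    obtain ⟨t, v, rfl⟩ := (b1 y).1 hy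
    rw [sp s, P.mul_left _ (CU _ (m _ _)) _ (CU _ (m _ _)) _ (a3 hy), z' _ _ (a3 hy), mul_one, sp t,
      P.mul_right _ (CU _ (m _ _)) _ (a3 (m _ _)) _ (a3 (m _ _)), P.triv _ (CU _ (m _ _)) _ (z _), mul_one, ← hB,
      tensor_lemma_alt B {s | s.1 = s.2 ∧ s.1 ≠ 0}]
    · rfl
    · rintro ⟨c, c'⟩ ⟨e, c0⟩ s t
      obtain rfl : c = c' := e
      obtain ⟨n, hn, e⟩ := b5 c c0
      refine Additive.toMul.injective (Subtype.ext ?_)
      rw [hB, hB, ← P.conj _ ((XF K).H_le_B hn) _ (CU _ (m s 0)) _ (a3 (m t 0)), e, e, mul_zero]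
    · intro φ _
      by_contra! e
      haveI := Fintype.ofFinite K
      have := card_le_of_hom_inv φ {1} fun w w0 => by simpa using e (w, w) ⟨rfl, w0⟩
      rw [← Nat.card_eq_fintype_card, Finset.card_singleton] at this; omega
    · exact fun s => Additive.toMul.injective (Subtype.ext ((hB s s).trans (P.self hs (AL_le_U _ _) (a3 (m s 0)))))

theorem schur_F4 (hK : 4 < Nat.card K) (h9 : Nat.card K ≠ 9) : HasCyclicSchurMultiplier S.T 1 := by
  haveI := h.finite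
  have hK' : ∃ y : K, y ≠ 0 ∧ y ≠ 1 := by
    have : Nontrivial Kˣ := Finite.one_lt_card_iff_nontrivial.1 (by rw [Nat.card_units]; omega)
    obtain ⟨t, ht⟩ := exists_ne (1 : Kˣ)
    exact ⟨t, t.ne_zero, fun e => ht (Units.ext e)⟩
  refine hasSchur_one_of_closed fun r hr => ?_
  by_cases e : r = 2
  · rw [e]; exact closedAt_F4 h hK hK' h9
  · exact closedAt_F4' h hK' hr e

end Cfsg.Agent.H14.Mu
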