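import Cfsg.Agent.H14.Mu4

/-! The universal covering group of the twisted groups of type `E₆`. -/

set_option autoImplicit false
set_option linter.style.haveILetI false

namespace Cfsg.Agent.H14.Mu

open Cfsg.Agent.H15 Cfsg.Agent.H27 Subgroup Cfsg.Lie Cfsg.Lie.ChevalleyDatum
open scoped commutatorElement

variable {K : Type*} [Field K] [Fintype K] {q : ℕ}

section
variable {G : Type*} [Group G] {X : RG R6 K G}

structure TE6 (S : TwO X (Fin 4)) (φ : K →+* K) : Prop where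
  τ : S.τ = τ6
  g : ∀ i, S.g i = φ
  o : S.o = o6
  gg : ∀ t, φ (φ t) = t

variable {S : TwO X (Fin 4)} {φ : K →+* K}

omit [Fintype K] in
theorem TE6.nod1 (h : TE6 S φ) {k : Fin 4} {i : Fin 6} (h1 : ∀ a, o6 a = k ↔ a = i) (h2 : τ6 i = i) :
    Nod S k (stOne X (R6.simple i) (φ.eqLocusField (RingHom.id K)).subtype) :=
  h.g i ▸ nod_one (fun a => by rw [TwO.J, h.o]; exact h1 a) (h.τ ▸ h2)

omit [Fintype K] in
theorem TE6.nod2 (h : TE6 S φ) {k : Fin 4} {i j : Fin 6} (h1 : ∀ a, o6 a = k ↔ a = i ∨ a = j) (hij : i ≠ j)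
    (h2 : τ6 i = j) (h3 : τ6 j = i) (hc : R6.car i j = 0) :
    Nod S k (stMul _ _ (stC_one (X := X) hij hc (RingHom.id K) φ)) :=
  h.g i ▸ nod_two (fun a => by rw [TwO.J, h.o]; exact h1 a) hij (h.τ ▸ h2) (h.τ ▸ h3) hc (by simp [h.g, h.gg])

theorem TE6.closedAt [Finite S.T] (h : TE6 S φ) (hi : Function.Injective (X.torX X.hmul_of_finite)) (p : ℕ) [Fact p.Prime]
    [CharP K p] {r : ℕ} (hr : r.Prime) (hrp : r ≠ p) : ClosedAt r S.T := by
  refine closedAt_of_prod hr hrp [0, 1, 2, 3] (by decide) (by decide) fun Γ _ _ σ hσ _ t ht e => ?_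
  obtain ⟨a0, b0, c0, d0⟩ := (h.nod1 (i := 1) (by decide) rfl).lift hσ (ht 0).1 (ht 0).2
  obtain ⟨a1, b1, c1, d1⟩ := (h.nod1 (i := 3) (by decide) rfl).lift hσ (ht 1).1 (ht 1).2
  obtain ⟨a2, b2, c2, d2⟩ := (h.nod2 (i := 2) (j := 4) (by decide) (by decide) rfl rfl (car6 _ _)).lift hσ (ht 2).1 (ht 2).2
  obtain ⟨a3, b3, c3, d3⟩ := (h.nod2 (i := 0) (j := 5) (by decide) (by decide) rfl rfl (car6 _ _)).lift hσ (ht 3).1 (ht 3).2
  have e1 := congrArg Subtype.val e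
  have H := h_eq_tor (X.torX_single X.hmul_of_finite)
  simp only [List.map, List.prod_cons, List.prod_nil, map_mul, Subgroup.coe_mul, c0, c1, c2, c3, stMul_h, stOne_h, mul_one,
    RingHom.id_apply] at e1
  rw [H _ ((map_ne_zero _).2 b0), H _ ((map_ne_zero _).2 b1), H _ b2, H _ ((map_ne_zero _).2 b2), H _ b3,
    H _ ((map_ne_zero _).2 b3), ← map_mul, ← map_mul, ← map_mul, ← map_mul, ← map_mul] at e1
  have e2 := (map_eq_one_iff _ hi).1 e1
  have f0 := congrFun e2 1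
  have f1 := congrFun e2 3
  have f2 := congrFun e2 2
  have f3 := congrFun e2 0
  simp [Units.ext_iff] at f0 f1 f2 f3
  simp [d0 f0, d1 f1, d2 f2, d3 f3]

end

variable (K) in
noncomputable def XS6 : RG R6 K (chevE6.SteinbergGroup K) := rgSt goodE6 K stE6

omit [Fintype K] in
theorem exists_TE6 (φ : K →+* K) (hφ : ∀ t, φ (φ t) = t) : ∃ S : TwO (XS6 K) (Fin 4), TE6 S φ := by
  have e1 : ∀ i : Fin 6, morE6.r (goodE6.R.simple i) = goodE6.R.simple (τ6 i) ∧ morE6.ε (goodE6.R.simple i) = 1 := fun i => by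
    erw [Fin.ext_iff, Morph.r_val, goodE6.simple_eq, goodE6.simple_eq]
    exact ⟨(morE6_simple i i.2).1.trans (congrArg _
      ((by decide : ∀ i : Fin 6, [5, 1, 4, 3, 2, 0].getD i 0 = (τ6 i : ℕ)) i)), (morE6_simple i i.2).2⟩
  let S : Tw (XS6 K) := ⟨twS goodE6 stE6 morE6 φ, τ6, fun _ => φ, fun a _ b _ => map_mul _ a b,
    fun i t => (twS_x goodE6 stE6 morE6_e φ _ t).trans (by erw [(e1 i).1, (e1 i).2]; simp; rfl),
    fun i t => (twS_x goodE6 stE6 morE6_e φ _ t).trans (by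
      erw [morE6.r_neg goodE6 goodE6, (e1 i).1, goodE6.neg_eq, (morE6.ok _ (goodE6.R.simple i).2).2.2.2.1, (e1 i).2]
      simp; rfl)⟩
  have one : ∀ (k : Fin 4) (i : Fin 6), (∀ a, o6 a = k ↔ a = i) → τ6 i = i →
      ∃ v ∈ (XS6 K).gen (MJ R6 (o6 ⁻¹' {k})), S.s v = v ∧ v ≠ 1 := fun k i a1 a2 => by
    have := (S.one_neg (J := o6 ⁻¹' {k}) a1 a2 _).2 ⟨1, map_one _, rfl⟩
    exact ⟨_, this.1, this.2.2, fun h => one_ne_zero ((XS6 K).x_eq_one_iff.1 h)⟩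
  have two : ∀ (k : Fin 4) (i j : Fin 6), (∀ a, o6 a = k ↔ a = i ∨ a = j) → i ≠ j → τ6 i = j → τ6 j = i →
      carE6 i j = 0 → ∃ v ∈ (XS6 K).gen (MJ R6 (o6 ⁻¹' {k})), S.s v = v ∧ v ≠ 1 :=
    fun k i j a1 a2 a3 a4 a5 => by
      have := (S.two_neg (J := o6 ⁻¹' {k}) a1 a2 a3 a4 ((car6 i j).trans a5) hφ _).2 ⟨1, rfl⟩
      exact ⟨_, this.1, this.2.2, S.two_neg_ne (J := o6 ⁻¹' {k}) a1 a2 a3 a4 ((car6 i j).trans a5) hφ⟩
  refine ⟨⟨S, o6, (by decide : ∀ b, ∃ a, o6 a = b), (by decide : ∀ i, o6 (τ6 i) = o6 i), fun i j h => ?_,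
    fun k => ?_⟩, rfl, fun _ => rfl, rfl, hφ⟩
  · rcases (by decide : ∀ i j, o6 i = o6 j → i = j ∨ τ6 i = j) i j h with h | h
    exacts [⟨0, h⟩, ⟨1, h⟩]
  · fin_cases k
    exacts [one 0 1 (by decide) rfl, one 1 3 (by decide) rfl, two 2 2 4 (by decide) (by decide) rfl rfl rfl,
      two 3 0 5 (by decide) (by decide) rfl rfl rfl]

theorem schur_E6 {S : TwO (X6 K) (Fin 4)} (h : H15.IsE6 S q) (h2 : q ≠ 2) :
    HasCyclicSchurMultiplier S.T (Nat.gcd 3 (q + 1)) := by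
  obtain ⟨p, hp⟩ := CharP.exists K
  haveI := Fact.mk (CharP.char_is_prime K p)
  have h1 : TE6 S (S.g 0) := ⟨h.τ, fun i => RingHom.ext fun t => by rw [h.g, h.g], h.o, h.gg 0 0⟩
  obtain ⟨S', h'⟩ := exists_TE6 (S.g 0) h1.gg
  have π := (piSt_hom goodE6 K stE6).map_x
  have e : S'.T.map (piSt goodE6 K) = S.T := map_T _ fun k => by
    fin_cases k
    · exact (h1.nod1 (i := 1) (by decide) rfl).map (h'.nod1 (by decide) rfl) (fun _ => π _ _) fun _ => π _ _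
    · exact (h1.nod1 (i := 3) (by decide) rfl).map (h'.nod1 (by decide) rfl) (fun _ => π _ _) fun _ => π _ _
    · exact (h1.nod2 (i := 2) (j := 4) (by decide) (by decide) rfl rfl (car6 _ _)).map
        (h'.nod2 (by decide) (by decide) rfl rfl (car6 _ _)) (fun _ => (map_mul _ _ _).trans (congrArg₂ _ (π _ _) (π _ _)))
        fun _ => (map_mul _ _ _).trans (congrArg₂ _ (π _ _) (π _ _))
    · exact (h1.nod2 (i := 0) (j := 5) (by decide) (by decide) rfl rfl (car6 _ _)).map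
        (h'.nod2 (by decide) (by decide) rfl rfl (car6 _ _)) (fun _ => (map_mul _ _ _).trans (congrArg₂ _ (π _ _) (π _ _)))
        fun _ => (map_mul _ _ _).trans (congrArg₂ _ (π _ _) (π _ _))
  haveI := finite_St (G := goodE6) (K := K) stE6
  have hp1 := closedAt_E6 h h2 p
  have hp2 := h.perfect
  rw [← e] at hp1 hp2 ⊢
  have hs := (piSt goodE6 K).subgroupMap_surjective S'.T
  have hk := (ker_eq_center (rgSt_grp goodE6 K stE6) (piSt_hom goodE6 K stE6))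
  have hz := center_eq_map (rgSt_grp goodE6 K stE6) (rgSt_hmul goodE6 K stE6) (piSt_hom goodE6 K stE6)
  have hk1 : ∀ g : S'.T, g ∈ ((piSt goodE6 K).subgroupMap S'.T).ker ↔ (g : chevE6.SteinbergGroup K) ∈ center _ :=
    fun g => by rw [← hk]; exact Subtype.ext_iff
  have hc : ((piSt goodE6 K).subgroupMap S'.T).ker ≤ center _ := fun g hg =>
    mem_center_iff.2 fun a => Subtype.ext (mem_center_iff.1 ((hk1 g).1 hg) a)
  have hH : ∀ c, (rgSt goodE6 K stE6).torX (rgSt_hmul goodE6 K stE6) c ∈ (XS6 K).H := fun c =>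
    ((rgSt goodE6 K stE6).torX_range _).le ⟨c, rfl⟩
  have hP := perfect_of_cover p hs hp2 fun g hg => by
    obtain ⟨c, -, e⟩ := hz.le ((hk1 g).1 hg)
    exact mem_subgroupOf.2 (e ▸ hH c)
  have hF := S'.toTw.H_inf_Fix' ((rgSt goodE6 K stE6).torX_single (rgSt_hmul goodE6 K stE6))
    ((rgSt goodE6 K stE6).torX_range _) torX_injective_E6
  have hC : ∀ c, c ∈ S'.CFix ↔ ∀ i, c (τ6 i) = c i ^ q := fun c => by
    simp [Tw.mem_CFix, h'.τ, h'.g, h.g, Units.ext_iff]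
  have hn : Nat.card ((piSt goodE6 K).subgroupMap S'.T).ker = Nat.gcd 3 (q + 1) := by
    rw [← card_ker_E6 h.hK]
    refine (Nat.card_congr (Equiv.ofBijective (fun c => ⟨⟨_, S'.tor_mem_T (fun k => by
        rw [TwO.J, h'.o, ← h.o]; exact h.orth k)
      ((rgSt goodE6 K stE6).torX_single (rgSt_hmul goodE6 K stE6)) ((hC c.1).2 c.2.2)⟩,
      (hk1 _).2 (hz.ge ⟨c, mem_tor6_ker.2 c.2.1, rfl⟩)⟩) ⟨fun a b e => Subtype.ext (torX_injective_E6
        (congrArg (fun g => (g.1 : chevE6.SteinbergGroup K)) e)), fun g => ?_⟩)).symm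
    obtain ⟨c, h3, e⟩ := hz.le ((hk1 _).1 g.2)
    obtain ⟨c', h4, e'⟩ := hF.le ⟨e ▸ hH c, S'.T_le_Fix g.1.2⟩
    obtain rfl := torX_injective_E6 (e.trans e'.symm)
    exact ⟨⟨c, mem_tor6_ker.1 h3, (hC c).1 h4⟩, Subtype.ext (Subtype.ext e)⟩
  rw [← hn]
  haveI := Fact.mk Nat.prime_three
  refine hasSchur_of_cover hP (fun r hr => ?_) hs hc
    (zmodCyclicMulEquiv (isCyclic_of_card_dvd_prime (hn ▸ Nat.gcd_dvd_left 3 _))).symm
  by_cases hrp : r = p
  · exact hrp ▸ hp1.of_cover Fact.out hP hs hc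
  · exact h'.closedAt torX_injective_E6 p hr hrp

end Cfsg.Agent.H14.Mu
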