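import Cfsg.Agent.H14.Mu8
import Cfsg.Agent.H15.TwA3
import Cfsg.Agent.H15.TwIF
import Cfsg.Agent.H15.Sz4

/-! The Schur multiplier of the large Ree groups away from the prime two. -/

set_option autoImplicit false
set_option linter.style.haveILetI false

namespace Cfsg.Agent.H14.Mu

open Cfsg.Agent.H15 Cfsg.Agent.H27 Subgroup Cfsg.Lie Cfsg.Lie.ChevalleyDatum
open scoped commutatorElement

variable {K : Type*} [Field K] [CharP K 2]

section
variable {D : ChevalleyDatum}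

variable (K) in
def EI (I : Fin 4 → Fin D.nroots) : Matrix D.Idx (Fin 4) K := Matrix.of fun a j => if a = Sum.inr (I j) then 1 else 0

def XE (I : Fin 4 → Fin D.nroots) (r : Fin D.nroots) (M : List (Fin 4 × Fin 4)) : Prop := ∀ j, I j ≠ r ∧
  (I j).val ≠ D.negIdx.getD r 0 ∧ ∀ u : Fin D.nroots, (D.chainCoeff r (I j) u = [] ∧ ∀ i, I i = u → (i, j) ∉ M) ∨
    ∃ i, I i = u ∧ (i, j) ∈ M ∧ (D.chainCoeff r (I j) u = [(1, 1)] ∨ D.chainCoeff r (I j) u = [(1, -1)])

set_option synthInstance.maxSize 1000 in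
instance instDecXE (I : Fin 4 → Fin D.nroots) (r : Fin D.nroots) (M : List (Fin 4 × Fin 4)) : Decidable (XE I r M) := by
  unfold XE; infer_instance

variable {I : Fin 4 → Fin D.nroots} (hI : Function.Injective I)

omit [CharP K 2] in
theorem EI_rev : EI K (I ∘ Fin.rev) = EI K I * H19.J4 K := by
  ext a j; fin_cases j <;> simp [EI, H19.J4, Matrix.mul_apply, Fin.sum_univ_four]

omit [CharP K 2] in
theorem tor_EI (G : Good D) {c : Fin D.rank → Kˣ} (e : (G.tor K c).val * EI K I = EI K I) (i : Fin 4) :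
    ∏ a, c a ^ D.cartan a (I i) = 1 := by
  have := congrFun (congrFun e (Sum.inr (I i))) i
  rw [Good.tor, MonoidHom.comp_apply, Good.dgG_val, Good.dg, Matrix.diagonal_mul, G.torChar_apply] at this
  simpa [EI, G.cartan_eq, Good.wt, ← Units.val_zpow_eq_zpow_val, ← Units.coe_prod] using this

include hI

omit [CharP K 2] in
theorem EI_mul (A : Matrix (Fin 4) (Fin 4) K) (i j : Fin 4) : (EI K I * A) (Sum.inr (I i)) j = A i j := by
  simp [Matrix.mul_apply, EI, hI.eq_iff]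

theorem xE (G : Good D) {r : Fin D.nroots} {M : List (Fin 4 × Fin 4)} (h : XE I r M) (t : K) :
    ((G.rg K).x r t).val * EI K I = EI K I * (1 + Matrix.of fun i j => if (i, j) ∈ M then t else 0) := by
  ext a j
  obtain ⟨h1, h2, h3⟩ := h j
  have e : ((G.rg K).x r t).val = D.xMat K r t := (G.rg_x' K r t).trans (dif_pos r.2)
  have e1 : (D.xMat K r t * EI K I) a j = D.xMat K r t a (Sum.inr (I j)) := by simp [Matrix.mul_apply, EI]
  rw [e, e1, xMat, Matrix.of_apply]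
  simp only [if_neg h1, if_neg h2]
  rcases a with a | u
  · simp [Matrix.mul_apply, EI]
  by_cases c : ∃ i, I i = u
  · obtain ⟨i, rfl⟩ := c
    rw [EI_mul hI]
    rcases h3 (I i) with ⟨c1, c2⟩ | ⟨i', c1, c2, c3⟩
    · simp [c1, c2 i rfl, Matrix.one_apply, hI.eq_iff]
    · obtain rfl := hI c1
      rcases c3 with c3 | c3 <;> simp [c3, c2, Matrix.one_apply, hI.eq_iff, CharTwo.neg_eq]
  · push Not at c
    rcases h3 u with ⟨c1, -⟩ | ⟨i, c1, -⟩
    · simp [c1, Matrix.mul_apply, EI, fun i => (c i).symm]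
    · exact absurd c1 (c i)

theorem bE (G : Good D) {a b c d : Fin D.nroots} (ha : XE I a [(0, 1), (2, 3)])
    (hb : XE I b [(1, 2)]) (hc : XE I c [(0, 2), (1, 3)]) (hd : XE I d [(0, 3)]) (θ : K →+* K) (T : Sz.Tw K)
    (h1 : ∀ t, T.θ t = θ t ^ 2) (h2 : ∀ t, θ (θ t) ^ 2 = t) (t u : K) :
    ((G.rg K).x a (θ t) * ((G.rg K).x b t * ((G.rg K).x c (θ t * t + u) * (G.rg K).x d (θ u ^ 2)))).val * EI K I =
      EI K I * T.Sm (θ t) (θ t * t + u) := by
  simp only [Units.val_mul, Matrix.mul_assoc]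
  rw [xE hI G hd, ← Matrix.mul_assoc _ (EI K I), xE hI G hc, Matrix.mul_assoc, ← Matrix.mul_assoc _ (EI K I), xE hI G hb,
    Matrix.mul_assoc, ← Matrix.mul_assoc _ (EI K I), xE hI G ha, Matrix.mul_assoc]
  congr 1
  ext i j
  fin_cases i <;> fin_cases j <;>
    simp [Matrix.mul_apply, Fin.sum_univ_four, Matrix.one_apply, Sz.Tw.Sm, Sz.Tw.N, h1, h2, CharTwo.add_sq, mul_pow]
  all_goals grind

end

def fF (r : Fin 48) : Fin chevF4.nroots := r

variable [Finite K] {S : TwO (XF K) (Fin 2)} {θ : K →+* K} (h : H15.IsF4 S θ)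
include h

theorem closedAt_L1 (hK : ∃ y : K, y ≠ 0 ∧ y ≠ 1) {r : ℕ} (hr : r.Prime) (h2 : r ≠ 2) : ClosedAt r ((sr S).L 1) := by
  haveI := h.finite
  haveI := Fact.mk hr
  let T : Sz.Tw K := ⟨(frobenius K 2).comp θ, fun t => by simp [frobenius_def, h.θθ]⟩
  let M : Sz.Model T.grp K := ⟨T, Subgroup.subtype _, subtype_injective _, range_subtype _, hK⟩
  let I := fF ∘ ![37, 35, 34, 33]
  have hI : Function.Injective I := by decide
  have b1 : ∀ g ∈ S.XP 1, ∃ a b, g.val * EI K I = EI K I * T.Sm a b ∧ (a = 0 → b = 0 → g = 1) := fun g hg => by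
    obtain ⟨t, u, rfl⟩ := (h.P1 g).1 hg
    exact ⟨_, _, bE hI goodF4 (a := fF 27) (b := fF 25) (c := fF 28) (d := fF 30) (by decide +kernel) (by decide +kernel)
      (by decide +kernel) (by decide +kernel) θ T (fun _ => rfl) h.θθ t u, fun a b => by simp_all⟩
  have b2 : ∀ g ∈ S.XM 1, ∃ a b, g.val * EI K I = EI K I * (H19.J4 K * T.Sm a b * H19.J4 K) ∧
      (a = 0 → b = 0 → g = 1) := fun g hg => by
    obtain ⟨t, u, rfl⟩ := (h.XM1 g).1 hg
    have := congrArg (· * H19.J4 K) (bE (hI.comp Fin.rev_injective) goodF4 (a := fF 20) (b := fF 22) (c := fF 19)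
      (d := fF 17) (by decide +kernel) (by decide +kernel) (by decide +kernel) (by decide +kernel) θ T (fun _ => rfl) h.θθ t u)
    simp only [EI_rev, Matrix.mul_assoc _ _ (H19.J4 K), H19.J4_mul_J4, Matrix.mul_one, Matrix.mul_assoc (EI K I)] at this
    exact ⟨θ t, θ t * t + u, by rw [Matrix.mul_assoc]; exact this, fun a b => by simp_all⟩
  let Y : Subgroup (S.T × T.grp) :=
    { carrier := {p | p.1.val.val * EI K I = EI K I * M.mat p.2}
      mul_mem' := fun {p q} a b => by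
        change (p.1.val.val * q.1.val.val) * _ = _ * M.mat (p.2 * q.2)
        rw [Matrix.mul_assoc, b, ← Matrix.mul_assoc, a, Matrix.mul_assoc, M.mat_mul]
      one_mem' := by simp [M.mat_one]
      inv_mem' := fun {p} a => by
        change (p.1.val⁻¹).val * _ = _ * M.mat p.2⁻¹
        rw [← Matrix.one_mul (EI K I * _), ← p.1.val.inv_mul, Matrix.mul_assoc, ← Matrix.mul_assoc p.1.val.val, a,
          Matrix.mul_assoc, ← M.mat_mul, mul_inv_cancel, M.mat_one, Matrix.mul_one] }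
  have y1 : ∀ g ∈ (bs S 1).sg, ∃ A ∈ M.Q, (g, A) ∈ Y := fun g hg =>
    let ⟨a, b, e, _⟩ := b1 _ (mem_bs.1 hg); ⟨_, M.S_mem a b, e.trans (by rw [M.mat_S])⟩
  have y2 : ∀ g ∈ (bs S 1).neg.sg, ∃ A, (g, A) ∈ Y ∧ (A ∈ M.Q → g = 1) := fun g hg =>
    let ⟨a, b, e, c⟩ := b2 _ (mem_bs_neg.1 hg)
    ⟨M.W * M.S a b * M.W, e.trans (by rw [M.mat_mul, M.mat_mul, M.mat_S, M.mat_W]), fun ⟨a', b', e'⟩ => by
      have := M.S_smul_inf a' b'
      rw [← e', mul_smul, mul_smul, M.W_smul_inf, M.S_smul_zero, ← M.W_smul_zero, smul_left_cancel_iff, M.pt_inj] at this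
      exact Subtype.ext (c this.1 this.2)⟩
  have y3 : (sr S).L 1 ≤ Y.map (MonoidHom.fst _ _) := sup_le (fun g hg => let ⟨_, _, e⟩ := y1 g hg; ⟨_, e, rfl⟩)
    fun g hg => let ⟨_, e, _⟩ := y2 g hg; ⟨_, e, rfl⟩
  have y4 : ∀ {g A A'}, (g, A) ∈ Y → (g, A') ∈ Y → A = A' := fun a b => M.mat_inj (Matrix.ext fun i j =>
    (EI_mul hI _ i j).symm.trans ((congrFun (congrFun (a.symm.trans b) _) _).trans (EI_mul hI _ i j)))
  have y5 : ∀ g : (sr S).L 1, ∃ A, (g.val, A) ∈ Y := fun g => let ⟨p, a, b⟩ := y3 g.2; ⟨p.2, b ▸ a⟩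
  choose f hf using y5
  let ρ : (sr S).L 1 →* T.grp := MonoidHom.mk' f fun a b => y4 (hf _) (mul_mem (hf a) (hf b))
  have k1 : ∀ g ∈ (sr S).L 1, (g, 1) ∈ Y → Cj g (bs S 1).sg (bs S 1).sg := fun g hg e => by
    rcases (sr S).bruhat 1 g hg with ⟨x, hx, t, ht, rfl⟩ | ⟨x, hx, t, ht, x', hx', e'⟩
    · exact (cj_self_of_mem hx).mul (ht _)
    refine absurd (fun y hy => ?_) ((sr S).not_le_U 1)
    obtain ⟨A, a1, a2⟩ := y2 y hy
    obtain ⟨B, a3, a4⟩ := y1 x' hx'
    obtain ⟨C, a5, a6⟩ := y1 _ ((((cj_self_of_mem hx).mul (ht _)).mul ((sr S).n_cj_α' 1)).mem hy)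
    have := mul_mem (mul_mem e (mul_mem (mul_mem (inv_mem a4) a1) a4)) (inv_mem e)
    simp only [Prod.mk_mul_mk, Prod.inv_mk, e'] at this
    rw [a2 (by
      rw [show A = B * C * B⁻¹ by rw [y4 a6 (by convert this using 2; group)]; group]
      exact mul_mem (mul_mem a3 a5) (inv_mem a3))]
    exact one_mem _
  have k2 : Function.Injective ρ := (injective_iff_map_eq_one ρ).2 fun g e => by
    have a1 : (g.val, 1) ∈ Y := e ▸ hf g
    have a2 := k1 _ (mul_mem (mul_mem ((sr S).n_mem 1) g.2) (inv_mem ((sr S).n_mem 1))) (by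
      simpa using mul_mem (mul_mem (hf ⟨_, (sr S).n_mem 1⟩) a1) (inv_mem (hf ⟨_, (sr S).n_mem 1⟩)))
    obtain ⟨c, hc, e'⟩ := h.H_eq.le ⟨torT_eq.le ((sr S).mem_T_of_cj g.2 (k1 _ g.2 a1) (by
      simpa [mul_assoc] using (((sr S).n_cj_α' 1).inv.mul a2).mul ((sr S).n_cj_α' 1))), g.1.2⟩
    have a3 := tor_EI (I := I) goodF4 (c := c) ((congrArg (·.val * _) e').trans (a1.trans (by rw [M.mat_one, Matrix.mul_one])))
    have a4 : ∀ i (v : Fin 4 → ℤ), (∀ a : Fin 4, chevF4.cartan a (I i) = v a) →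
        (c 0 : K) ^ v 0 * c 1 ^ v 1 * c 2 ^ v 2 * c 3 ^ v 3 = 1 := fun i v e => by
      simpa [Fin.prod_univ_four, e] using congrArg Units.val (show ∏ a : Fin 4, c a ^ chevF4.cartan a (I i) = 1 from a3 i)
    have a5 := a4 0 ![0, 1, 0, -1] (by decide +kernel)
    have a6 := a4 2 ![1, 1, -1, 0] (by decide +kernel)
    have a7 := a4 3 ![2, -1, 0, 0] (by decide +kernel)
    simp [mul_inv_eq_one₀, zpow_two] at a5 a6 a7
    have a8 : (c 0 : K) = 1 := (M.θ_fix (a := c 0) (by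
      change θ _ ^ 2 = _
      rw [← map_pow, a7, a5, ← (h.mem_CFix.1 hc).1])).resolve_left (c 0).ne_zero
    refine Subtype.ext (Subtype.ext (e'.symm.trans ?_))
    rw [show c = 1 from funext fun i => Units.ext (by fin_cases i <;> simp_all), map_one]; rfl
  obtain ⟨P⟩ : Nonempty (Sylow r ((sr S).L 1)) := inferInstance
  haveI := M.isCyclic_of_isPGroup h2 (P.isPGroup'.map ρ)
  exact closedAt_of_cyclic_subgroup hr P P.not_dvd_index (isCyclic_of_surjective _ (P.1.equivMapOfInjective ρ k2).symm.surjective)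

omit [Finite K] in
theorem nodF : Nod S 0 (stMul _ _ (stC_one (X := XF K) (i := 0) (j := 3) (by decide) (carF _ _) θ (RingHom.id K))) :=
  ⟨h.P0, fun g => (h.XM0 g).trans (by rw [show (14 : Fin 48) = _ from (negF 0).symm, show (23 : Fin 48) = _ from (negF 3).symm]; rfl)⟩

theorem closedAt_F4' (hK : ∃ y : K, y ≠ 0 ∧ y ≠ 1) {r : ℕ} (hr : r.Prime) (h2 : r ≠ 2) : ClosedAt r S.T := by
  haveI := h.finite
  refine closedAt_of_prod hr h2 [0, 1] (by decide) (by decide) fun Γ _ _ σ hσ hk t ht e => ?_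
  obtain ⟨a, a0, c0, d0⟩ := (nodF h).lift hσ (ht 0).1 (ht 0).2
  have m := (sr S).map_hL hσ sr_U 1
  have a1 : (sr S).L 1 ≤ (centralizer {(XF K).x 47 1}).subgroupOf S.T := by
    have : ∀ r ∈ ([27, 25, 28, 30] ++ [20, 22, 19, 17] : List (Fin 48)), ∀ s, (XF K).x r s ∈ centralizer {(XF K).x 47 1} :=
      fun r hr s => mem_centralizer_singleton_iff.2 (commuteF (by revert r; decide +kernel) _ _).eq
    exact sup_le (fun g hg => (XF K).gen_le.2 (fun r hr => this r (List.mem_append_left _ ((PJF h.mem_J r).2 hr))) (mem_bs.1 hg).1)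
      fun g hg => (XF K).gen_le.2 (fun r hr => this r (List.mem_append_right _ ((MJF h.mem_J r).2 hr))) (mem_bs_neg.1 hg).1
  simp only [List.map, List.prod_cons, List.prod_nil, mul_one, map_mul] at e ⊢
  have a2 := mem_centralizer_singleton_iff.1 (eq_inv_of_mul_eq_one_left e ▸ inv_mem (a1 (m.le ⟨_, (ht 1).1, rfl⟩)) :
    σ (t 0) ∈ (centralizer {(XF K).x 47 1}).subgroupOf S.T)
  have H := h_eq_tor (torF_single (K := K))
  rw [Subgroup.coe_subtype, c0, stMul_h, stOne_h, stOne_h, H _ ((map_ne_zero _).2 a0), H _ ((map_ne_zero _).2 a0), ← map_mul,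
    ← mul_inv_eq_iff_eq_mul, torF_conj, ((XF K).x_injective _).eq_iff, Fin.prod_univ_four] at a2
  have a3 : ∀ i : Fin 4, chevF4.cartan i (47 : Fin 48) = ![0, 0, 0, 1] i := by decide +kernel
  simp only [a3] at a2
  simp at a2
  rw [d0 a2] at e ⊢
  rw [one_mul]
  refine hσ.inj_on_closure (S := ((sr S).hX hσ sr_U (bs S 1) : Set Γ) ∪ (sr S).hX hσ sr_U (bs S 1).neg)
    (fun x hx => hx.elim (·.2) (·.2)) (fun r' hr' hd => ?_) (by rw [Subgroup.closure_union, closure_eq, closure_eq]; exact (ht 1).1)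
    (by simpa using e)
  rw [Subgroup.closure_union, closure_eq, closure_eq, (Nat.prime_dvd_prime_iff_eq hr' hr).1 (hk ▸ hd)]
  exact m ▸ closedAt_L1 h hK hr h2

end Cfsg.Agent.H14.Mu
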