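import Cfsg.Agent.H9.Dickson

/-! Groups whose `2`-subgroups are dihedral-like do not involve `SL(2, p)`. -/

set_option autoImplicit false

namespace Cfsg.Agent.H14

open Subgroup Matrix H9
open scoped MatrixGroups

/-- in every `2`-subgroup the elements of order greater than two commute -/
def DihLike (X : Type*) [Group X] : Prop :=
  ∀ T : Subgroup X, IsPGroup 2 T → ∀ x ∈ T, ∀ y ∈ T, x * x ≠ 1 → y * y ≠ 1 → x * y = y * x

theorem DihLike.not_involves {X : Type*} [Group X] [Finite X] (hX : DihLike X) {p : ℕ} [Fact p.Prime] (hp : p ≠ 2) :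
    ¬ Involves SL(2, ZMod p) X := fun h => by
  obtain ⟨K, β, hβ⟩ := involves_iff.1 h
  obtain ⟨a, b, e⟩ := ZMod.sq_add_sq p (-1)
  let i : SL(2, ZMod p) := ⟨!![0, -1; 1, 0], by simp [det_fin_two]⟩
  let j : SL(2, ZMod p) := ⟨!![a, b; b, -a], by rw [det_fin_two_of]; linear_combination -e⟩
  have h2 : (-1 : SL(2, ZMod p)) ≠ 1 := fun h => Ring.neg_one_ne_one_of_char_ne_two (R := ZMod p) (by rwa [ZMod.ringChar_zmod_n])
    (by simpa using congrArg (fun g : SL(2, ZMod p) => g 0 0) h)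
  have a1 : i * i = -1 := by apply sl2_ext <;> rw [sl2_mul_apply] <;> simp [i]
  have a2 : j * j = -1 := by
    apply sl2_ext <;> rw [sl2_mul_apply] <;> simp [j] <;> first | linear_combination e | ring
  have a3 : j * i = -(i * j) := by
    rw [← neg_one_mul, ← a1]; apply sl2_ext <;> simp only [sl2_mul_apply] <;> simp [i, j]
  have a4 : ∀ g : SL(2, ZMod p), g * g = -1 → IsPGroup 2 (zpowers g) := fun g hg =>
    IsPGroup.iff_card.2 (by
      rw [Nat.card_zpowers]
      exact ((Nat.dvd_prime_pow Nat.prime_two).1 (orderOf_dvd_of_pow_eq_one (n := 2 ^ 2)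
        (by rw [show 2 ^ 2 = 2 * 2 from rfl, pow_mul, pow_two g, hg]; simp))).imp fun _ h => h.2)
  obtain ⟨S, hS⟩ := ((a4 i a1).to_sup_of_normal_left' (a4 j a2) (zpowers_le.2 (mem_normalizer_iff_map_conj_eq.2 (by
    rw [MonoidHom.map_zpowers, ← zpowers_inv (g := i)]
    congr 1
    rw [eq_inv_iff_mul_eq_one]
    simp [a3, mul_assoc, a1])))).exists_le_sylow
  obtain ⟨T, rfl⟩ := Sylow.mapSurjective_surjective hβ 2 S
  obtain ⟨x, hx, b1⟩ := hS (mem_sup_left (mem_zpowers i))
  obtain ⟨y, hy, b2⟩ := hS (mem_sup_right (mem_zpowers j))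
  have := congrArg β (Subtype.ext (hX _ (T.isPGroup'.map K.subtype) x ⟨x, hx, rfl⟩ y ⟨y, hy, rfl⟩
    (fun h => h2 (by rw [← a1, ← b1, ← map_mul, show x * x = 1 from Subtype.ext h, map_one]))
    fun h => h2 (by rw [← a2, ← b2, ← map_mul, show y * y = 1 from Subtype.ext h, map_one])) : x * y = y * x)
  rw [map_mul, map_mul, b1, b2, a3, ← neg_one_mul] at this
  exact h2 (right_eq_mul.1 this)

theorem dihLike_psl {F : Type*} [Field F] [Finite F] (h2 : (2 : F) ≠ 0) : DihLike PSL(2, F) := fun T hT x hx y hy h1 h3 => by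
  have c : ∀ g : SL(2, F), (g : PSL(2, F)) = 1 ↔ g = 1 ∨ g = -1 := fun g => by
    rw [QuotientGroup.eq_one_iff]
    refine ⟨fun h => ?_, by rintro (rfl | rfl) <;> simp [mem_center_iff]⟩
    obtain ⟨r, -, h⟩ := Matrix.SpecialLinearGroup.mem_center_iff.1 h
    exact sl2_eq_one_or_neg_one (by simp [← h]) (by simp [← h]) (by simp [← h])
  have : Nontrivial T := ⟨⟨⟨x, hx⟩, 1, fun h => h1 (by simp [show x = 1 from congrArg Subtype.val h])⟩⟩
  have := hT.center_nontrivial
  obtain ⟨⟨⟨z, hz⟩, b1⟩, b2⟩ := exists_ne (1 : center T)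
  obtain ⟨z, rfl⟩ := QuotientGroup.mk_surjective z
  have b3 := mt (c z).2 fun h => b2 (Subtype.ext (Subtype.ext h))
  have b4 : ∀ g : SL(2, F), (g : PSL(2, F)) ∈ T → (g : PSL(2, F)) * g ≠ 1 → g * z = z * g := fun g hg h => by
    rcases (c (g * z * g⁻¹ * z⁻¹)).1 (by
      simpa [mul_inv_eq_iff_eq_mul] using congrArg Subtype.val (mem_center_iff.1 b1 ⟨_, hg⟩)) with e | e
    · simpa [mul_inv_eq_iff_eq_mul] using e
    refine absurd ((c (g * g)).2 (Or.inr ?_)) h
    have e1 : z * g * z⁻¹ = -g := by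
      rw [mul_inv_eq_iff_eq_mul, mul_inv_eq_iff_eq_mul] at e
      rw [mul_inv_eq_iff_eq_mul, neg_mul, e]; simp
    have e2 := sl2_trace_conj z g
    have e3 := sl2_det g
    have e4 : g 1 1 = - g 0 0 := mul_left_cancel₀ h2 (by simp [e1] at e2; linear_combination -e2)
    rw [e4] at e3
    apply sl2_ext <;> rw [sl2_mul_apply] <;> simp [e4] <;> first | linear_combination -e3 | ring
  obtain ⟨x, rfl⟩ := QuotientGroup.mk_surjective x
  obtain ⟨y, rfl⟩ := QuotientGroup.mk_surjective y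
  exact congrArg QuotientGroup.mk (sl2_commute_of_commute (fun h => b3 (.inl h)) (fun h => b3 (.inr h)) (b4 x hx h1) (b4 y hy h3))

/-- a group acting irreducibly on an elementary abelian group without a section `SL(2, p)` has no quadratic elements -/
theorem no_quadratic {G : Type*} [Group G] [Finite G] {p : ℕ} [Fact p.Prime] (hp : p ≠ 2) {V H : Subgroup G}
    (hV : IsElementaryAbelian p V) (hH : H ≤ normalizer (V : Set G)) (hi : ∀ U ≤ V, H ≤ normalizer (U : Set G) → U = ⊥ ∨ U = V)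
    [((centralizer (V : Set G)).subgroupOf H).Normal] (hs : ¬ Involves SL(2, ZMod p) (H ⧸ (centralizer (V : Set G)).subgroupOf H))
    {A : Subgroup G} (hA : A ≤ H) (hq : ⁅⁅V, A⁆, A⁆ = ⊥) : ⁅V, A⁆ = ⊥ := by
  rw [commutator_eq_bot_iff_le_centralizer, le_centralizer_iff]
  intro a ha
  have a1 : (⟨a, hA ha⟩ : H) ∈ opMod p (eaRep hV hH).ker := by
    by_contra h
    obtain ⟨L, ψ, ι, h1, h2, h3⟩ := natSec_of_quad hp (eaRep hV hH) (eaRep_quadratic _ (le_bot_iff.1
      (hq ▸ commutator_mono (commutator_mono le_rfl (zpowers_le.2 ha)) (zpowers_le.2 ha)))) h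
    refine hs (involves_of_hom ((QuotientGroup.mk' _).comp L.subtype) ψ h1 fun g hg => Subtype.ext (Matrix.ext_iff_mulVec.2 fun c => h2 ?_))
    rw [← h3, (eaRep_eq_one_iff _).2 (mem_subgroupOf.1 (by simpa using hg))]; simp
  by_cases h0 : V = ⊥
  · simp [h0, mem_centralizer_iff]
  obtain ⟨S⟩ : Nonempty (Sylow p H) := inferInstance
  let P := opMod p (eaRep hV hH).ker
  have a2 : V ⊓ centralizer (((S : Subgroup H) ⊓ P).map H.subtype : Set G) ≤ V ⊓ centralizer (P.map H.subtype : Set G) := by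
    refine le_inf inf_le_left (le_centralizer_iff.1 ?_)
    refine (map_mono (opMod_eq_sup _ S).le).trans ((Subgroup.map_sup _ _ _).trans_le (sup_le ?_ (le_centralizer_iff.1 inf_le_right)))
    rintro _ ⟨g, hg, rfl⟩
    exact centralizer_le inf_le_left ((eaRep_eq_one_iff g).1 hg)
  have a3 := (hi _ inf_le_left (H1.le_normalizer_inf hH (H1.le_normalizer_centralizer (X := P.map H.subtype)
    (le_trans (by rw [normalizer_eq_top, ← MonoidHom.range_eq_map, range_subtype]) (le_normalizer_map _))))).resolve_left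
    fun h => H1.inf_centralizer_ne_bot_of_isPGroup (fun v => ⟨1, Subtype.ext (by simpa using hV.2 v v.2)⟩)
      ((S.isPGroup'.to_le inf_le_left).map H.subtype) ((map_subtype_le _).trans hH) h0 (le_bot_iff.1 (h ▸ a2))
  exact le_centralizer_iff.1 (a3.ge.trans inf_le_right) ⟨_, a1, rfl⟩

end Cfsg.Agent.H14
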