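import Cfsg.Agent.H14.Sy1

/-! Sylow subgroups for primes that divide neither the characteristic nor the order of the Weyl group. -/

set_option autoImplicit false

namespace Cfsg.Agent.H14

open Finset Polynomial Cfsg.Lie Cfsg.Lie.ChevalleyDatum

section nt
variable {r q : ℕ} [hr : Fact r.Prime]

lemma dvd_pow_sub_one_iff (e : ℕ) : (r : ℤ) ∣ (q : ℤ) ^ e - 1 ↔ orderOf (q : ZMod r) ∣ e := by
  rw [← ZMod.intCast_zmod_eq_zero_iff_dvd, orderOf_dvd_iff_pow_eq_one]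
  simp [sub_eq_zero]

lemma dvd_pow_sub_one_iff' (hq : 1 < q) (e : ℕ) : r ∣ q ^ e - 1 ↔ orderOf (q : ZMod r) ∣ e := by
  rw [← dvd_pow_sub_one_iff, ← Int.natCast_dvd_natCast, Nat.cast_sub (Nat.one_le_pow _ _ (by omega))]
  simp

lemma orderOf_pos_of (hrq : ¬ r ∣ q) : 0 < orderOf (q : ZMod r) :=
  (isOfFinOrder_iff_pow_eq_one.2 ⟨r - 1, Nat.sub_pos_of_lt hr.out.one_lt,
    ZMod.pow_card_sub_one_eq_one (by rwa [Ne, ZMod.natCast_eq_zero_iff])⟩).orderOf_pos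

lemma val_cyc (hq : 1 < q) (hrq : ¬ r ∣ q) : padicValNat r ((cyclotomic (orderOf (q : ZMod r)) ℤ).eval (q : ℤ)).natAbs =
    padicValNat r (q ^ orderOf (q : ZMod r) - 1) := by
  have h0 := orderOf_pos_of hrq
  have h1 := congrArg (fun p => (p.eval (q : ℤ)).natAbs) (prod_cyclotomic_eq_X_pow_sub_one h0 ℤ)
  have h2 := Nat.one_lt_pow h0.ne' hq
  simp only [← Nat.cons_self_properDivisors h0.ne', prod_cons, eval_mul, Int.natAbs_mul, eval_sub, eval_pow, eval_X, eval_one] at h1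
  rw [show ((q : ℤ) ^ orderOf (q : ZMod r) - 1).natAbs = q ^ orderOf (q : ZMod r) - 1 by
    rw [← Nat.cast_pow, ← Nat.cast_pred (by omega), Int.natAbs_natCast]] at h1
  have h3 := (h1.trans_gt (Nat.sub_pos_of_lt h2)).ne'
  rw [← h1, padicValNat.mul (left_ne_zero_of_mul h3) (right_ne_zero_of_mul h3), padicValNat.eq_zero_of_not_dvd (n := Int.natAbs (eval _ (∏ _ ∈ _, _)))]
  · rfl
  rw [← Int.natCast_dvd, eval_prod, (Nat.prime_iff_prime_int.1 hr.out).dvd_finsetProd_iff]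
  rintro ⟨e, he, h⟩
  have := (dvd_pow_sub_one_iff e).1 (h.trans (by simpa using eval_dvd (x := (q : ℤ)) (cyclotomic.dvd_X_pow_sub_one e ℤ)))
  exact (Nat.le_of_dvd (Nat.pos_of_mem_properDivisors he) this).not_gt (Nat.mem_properDivisors.1 he).2

lemma val_prod (hq : 1 < q) (hrq : ¬ r ∣ q) (h2 : r ≠ 2) (L : List ℕ) (hL : ¬ r ∣ L.prod) :
    padicValNat r (L.map fun e => q ^ e - 1).prod =
      padicValNat r (q ^ orderOf (q : ZMod r) - 1) * (L.filter fun e => orderOf (q : ZMod r) ∣ e).length ∧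
    (L.map fun e => q ^ e - 1).prod ≠ 0 := by
  induction L with
  | nil => simp
  | cons e L ih =>
    obtain ⟨a1, a2⟩ := ih fun h => hL (h.mul_left e)
    have a3 : ¬ r ∣ e := fun h => hL (h.mul_right _)
    have a4 := Nat.sub_ne_zero_of_lt (Nat.one_lt_pow (n := e) (fun h => a3 (h ▸ dvd_zero r)) hq)
    refine ⟨?_, mul_ne_zero a4 a2⟩
    rw [List.map_cons, List.prod_cons, padicValNat.mul a4 a2, a1, List.filter_cons]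
    by_cases h : orderOf (q : ZMod r) ∣ e
    · obtain ⟨m, rfl⟩ := h
      have := padicValNat.pow_sub_pow (hr.out.odd_of_ne_two h2) (Nat.one_lt_pow (orderOf_pos_of hrq).ne' hq)
        ((dvd_pow_sub_one_iff' hq _).2 dvd_rfl) (fun h => hrq (hr.out.dvd_of_dvd_pow h)) (n := m) (by rintro rfl; simp at a3)
      rw [one_pow, ← pow_mul, padicValNat.eq_zero_of_not_dvd (n := m) fun h => a3 (h.mul_left _)] at this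
      simp [this, mul_add, add_comm]
    · simp [h, padicValNat.eq_zero_of_not_dvd (mt (dvd_pow_sub_one_iff' hq e).1 h)]

end nt

universe u in
theorem sylow_homocyclic {D : ChevalleyDatum} (G : Good D) {T : Tab} (B : Bridge D T) (hs : StData D)
    (hi : ∀ (K : Type u) [Field K], Function.Injective (torS G hs K)) {m d : ℕ} (hc : HasCenter G.R.car m d) {L : List ℕ}
    {C : List (ℕ × List ℕ × ℤ × List (ℕ × List (List ℤ)))} (h1 : allL C (fun c => band (syChk T D.nroots D.rank c.2.1 (phiL c.1) c.2.2.1 c.2.2.2)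
      (decide (c.2.2.2.length = (L.filter fun e => c.1 ∣ e).length ∧ c.2.2.1 ∣ L.prod))) = true)
    (h2 : d ∣ L.prod ∧ 2 ∣ L.prod ∧ ∀ e ∈ L, e < 31 ∧ ∀ a < 31, a ∣ e → a ∈ C.map Prod.fst) (F : Type u) [Field F] [Fintype F] {N : ℕ}
    (h3 : Nat.gcd d (Fintype.card F - 1) ^ m * Nat.card (D.group F) =
      Fintype.card F ^ N * (L.map fun e => Fintype.card F ^ e - 1).prod)
    (r : ℕ) [hr : Fact r.Prime] (hrq : ¬ r ∣ Fintype.card F) (hrW : ¬ r ∣ L.prod) (hrG : r ∣ Nat.card (D.group F))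
    (P : Sylow r (D.group F)) : Nonempty ((P : Subgroup (D.group F)) ≃*
      (Fin (L.filter (fun e => orderOf (Fintype.card F : ZMod r) ∣ e)).length → Multiplicative (ZMod (r ^ padicValNat r
        ((cyclotomic (orderOf (Fintype.card F : ZMod r)) ℤ).eval (Fintype.card F : ℤ)).natAbs)))) := by
  have hq := Fintype.one_lt_card (α := F)
  obtain ⟨a1, a2⟩ := val_prod hq hrq (by rintro rfl; exact hrW h2.2.1) L hrW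
  have a3 : ¬ r ∣ Nat.gcd d (Fintype.card F - 1) ^ m := fun h =>
    hrW (((hr.out.dvd_of_dvd_pow h).trans (Nat.gcd_dvd_left _ _)).trans h2.1)
  have a4 := congrArg (padicValNat r) h3
  rw [padicValNat.mul (by rintro h; simp [h] at a3) Nat.card_pos.ne', padicValNat.mul (by positivity) a2, a1,
    padicValNat.eq_zero_of_not_dvd a3, padicValNat.eq_zero_of_not_dvd (fun h => hrq (hr.out.dvd_of_dvd_pow h)), zero_add, zero_add] at a4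
  rw [val_cyc hq hrq]
  obtain ⟨e, he⟩ := List.exists_mem_of_length_pos (Nat.pos_of_mul_pos_left (a4 ▸ one_le_padicValNat_of_dvd Nat.card_pos.ne' hrG))
  rw [List.mem_filter, decide_eq_true_iff] at he
  have a5 : 0 < e := Nat.pos_of_ne_zero fun h => hrW ((h ▸ dvd_zero r : r ∣ e).trans (List.dvd_prod he.1))
  obtain ⟨c, hc1, hc2⟩ := List.mem_map.1 ((h2.2.2 e he.1).2 _ ((Nat.le_of_dvd a5 he.2).trans_lt (h2.2.2 e he.1).1) he.2)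
  have a6 := allL_iff.1 h1 c hc1
  rw [band_iff, decide_eq_true_iff, hc2] at a6
  have a7 : ∀ {x : ℤ} v, ¬ (r : ℤ) ∣ x → IsCoprime ((r ^ v : ℕ) : ℤ) x := fun v h => by
    simpa using ((Nat.prime_iff_prime_int.1 hr.out).irreducible.coprime_iff_not_dvd.2 h).pow_left
  obtain ⟨f, hf⟩ := exists_homocyclic G B hs hi F a6.1 (n := r ^ padicValNat r (Fintype.card F ^ orderOf (Fintype.card F : ZMod r) - 1))
    (((Nat.Prime.coprime_iff_not_dvd hr.out).2 hrq).symm.pow_right _) (dvd_evM (fun h => by simp [syChk, h] at a6)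
      (by simpa [Nat.cast_sub (Nat.one_le_pow _ _ (zero_lt_one.trans hq))] using Int.natCast_dvd_natCast.2 (pow_padicValNat_dvd
        (p := r) (n := Fintype.card F ^ orderOf (Fintype.card F : ZMod r) - 1)))
      fun e b1 b2 => a7 _ fun h => (Nat.le_of_dvd b1 ((dvd_pow_sub_one_iff e).1 h)).not_gt b2)
    (a7 _ fun h => hrW (Int.natCast_dvd_natCast.1 (h.trans a6.2.2))).symm (by
      rw [card_center_St G hs (hi F) hc, Nat.card_eq_fintype_card]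
      exact ((Nat.Prime.coprime_iff_not_dvd hr.out).2 a3).pow_left _)
  rw [← a6.2.1]
  exact ⟨(P.equiv (Sylow.ofCard f.range (by
    rw [← Nat.card_congr (MonoidHom.ofInjective hf).toEquiv, Nat.factorization_def _ hr.out, a4, a6.2.1]
    simp [Nat.card_pi, pow_mul]))).trans (MonoidHom.ofInjective hf).symm⟩

/-- certificates for type G2 -/
def syG2 : List (ℕ × List ℕ × ℤ × List (ℕ × List (List ℤ))) := [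
  (1, [], 1, [(0, [[1, 0]]), (1, [[0, 1]])]),
  (2, [7, 11], 1, [(0, [[1, 0]]), (1, [[0, 1]])]),
  (3, [9, 8], 1, [(0, [[1, 2], [0, 1]])]),
  (6, [11, 8], 1, [(0, [[1, 1], [0, 1]])])]

/-- certificates for type B2 -/
def syB2 : List (ℕ × List ℕ × ℤ × List (ℕ × List (List ℤ))) := [
  (1, [], 1, [(0, [[1, 0]]), (1, [[0, 1]])]),
  (2, [6, 5], 1, [(0, [[1, 0]]), (1, [[0, 1]])]),
  (4, [6, 4], 1, [(0, [[1, 1], [0, 1]])])]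

/-- certificates for type D4 -/
def syD4 : List (ℕ × List ℕ × ℤ × List (ℕ × List (List ℤ))) := [
  (1, [], 1, [(0, [[1, 0, 0, 0]]), (1, [[0, 1, 0, 0]]), (2, [[0, 0, 1, 0]]), (3, [[0, 0, 0, 1]])]),
  (2, [12, 23, 13, 18], 1, [(0, [[1, 0, 0, 0]]), (1, [[0, 1, 0, 0]]), (2, [[0, 0, 1, 0]]), (3, [[0, 0, 0, 1]])]),
  (3, [14, 19], 1, [(0, [[1, 0, 0, 0], [0, -1, 0, 0]])]),
  (4, [14, 19, 12, 22], 1, [(0, [[1, 1, 0, 0], [0, -1, 0, -1]]), (2, [[0, 1, 1, 1], [0, 1, 0, 0]])]),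
  (6, [21, 16, 22, 19], 1, [(0, [[1, 1, 1, 0], [0, 1, 0, 1]])])]

/-- certificates for type F4 -/
def syF4 : List (ℕ × List ℕ × ℤ × List (ℕ × List (List ℤ))) := [
  (1, [], 1, [(0, [[1, 0, 0, 0]]), (1, [[0, 1, 0, 0]]), (2, [[0, 0, 1, 0]]), (3, [[0, 0, 0, 1]])]),
  (2, [37, 25, 33, 47], 1, [(0, [[1, 0, 0, 0]]), (1, [[0, 1, 0, 0]]), (2, [[0, 0, 1, 0]]), (3, [[0, 0, 0, 1]])]),
  (3, [39, 41, 36, 45], 1, [(0, [[1, 0, -1, 0], [0, 0, -2, -1]]), (1, [[0, 1, 2, 1], [0, 0, 1, 1]])]),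
  (4, [27, 47, 30, 29], 1, [(0, [[1, 0, 1, 1], [0, 0, -1, 1]]), (1, [[0, 1, 1, 0], [0, 0, 1, 0]])]),
  (6, [31, 32, 28, 33], 1, [(0, [[1, 1, 0, -2], [0, 1, 0, 2]]), (2, [[0, 0, 1, 1], [0, 0, 0, -1]])]),
  (8, [30, 38, 33, 28], 2, [(3, [[1, 2, 3, 2], [0, -1, -1, 0], [1, 1, 1, 0], [0, 0, -1, 0]])]),
  (12, [41, 32, 34, 33], 1, [(0, [[1, 1, 1, 1], [0, 0, 0, 1], [0, 1, 2, 1], [0, 0, 1, 0]])])]

/-- certificates for type E6 -/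
def syE6 : List (ℕ × List ℕ × ℤ × List (ℕ × List (List ℤ))) := [
  (1, [], 1, [(0, [[1, 0, 0, 0, 0, 0]]), (1, [[0, 1, 0, 0, 0, 0]]), (2, [[0, 0, 1, 0, 0, 0]]), (3, [[0, 0, 0, 1, 0, 0]]), (4, [[0, 0, 0, 0, 1, 0]]), (5, [[0, 0, 0, 0, 0, 1]])]),
  (2, [69, 54, 46, 64], 1, [(0, [[1, 0, 0, 0, 0, -1]]), (1, [[0, 1, 0, 0, 0, 0]]), (2, [[0, 0, 1, 0, 1, 1]]), (3, [[0, 0, 0, 1, 0, 0]])]),
  (3, [36, 42, 46, 54, 61, 69], 1, [(0, [[1, 0, 0, 0, 0, 1], [0, 0, 0, 1, 0, 1]]), (1, [[0, 1, 0, 1, 0, 0], [0, 0, 0, 0, -1, -1]]), (2, [[0, 0, 1, 1, 1, 0], [0, 0, 0, 0, 1, 0]])]),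
  (4, [44, 45, 46, 49], 1, [(1, [[0, 1, 0, 1, 1, 1], [0, 0, 0, 1, 1, 0]]), (2, [[0, 0, 1, 0, 0, 0], [0, 0, 0, 0, 0, 1]])]),
  (5, [63, 57, 63, 71, 54, 65], 1, [(0, [[1, 0, 1, 1, 0, 0], [0, -2, -1, -2, -2, -1], [0, -2, -2, -3, -2, -1], [0, -1, -1, -2, -1, -1]])]),
  (6, [67, 39, 46, 51, 42, 70], 1, [(0, [[1, 0, 0, 0, 0, 1], [0, 1, 0, 0, 0, -1]]), (2, [[0, 0, 1, 1, 1, 0], [0, 0, 0, 0, 0, 1]])]),
  (8, [57, 55, 71, 36, 68], 1, [(5, [[1, 1, 1, 1, 1, 1], [1, 1, 1, 1, 0, 0], [0, 0, 0, 0, -1, 0], [0, 0, 1, 1, 0, 0]])]),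
  (9, [55, 65, 41, 49, 54, 52], 1, [(0, [[1, 1, 1, 2, 1, 0], [0, 1, 1, 2, 2, 1], [0, 0, 0, 0, 0, 1], [0, -1, -1, -1, -1, -1], [0, 1, 0, 1, 1, 0], [0, 1, 1, 2, 1, 1]])]),
  (12, [59, 66, 51, 50, 64, 45], 1, [(0, [[1, 1, 1, 1, 1, 0], [0, 0, 0, 0, 0, 1], [0, -1, 0, 0, 0, 0], [0, 1, 0, 1, 1, 0]])])]

/-- certificates for type E7 -/
def syE7 : List (ℕ × List ℕ × ℤ × List (ℕ × List (List ℤ))) := [
  (1, [], 1, [(0, [[1, 0, 0, 0, 0, 0, 0]]), (1, [[0, 1, 0, 0, 0, 0, 0]]), (2, [[0, 0, 1, 0, 0, 0, 0]]), (3, [[0, 0, 0, 1, 0, 0, 0]]), (4, [[0, 0, 0, 0, 1, 0, 0]]), (5, [[0, 0, 0, 0, 0, 1, 0]]), (6, [[0, 0, 0, 0, 0, 0, 1]])]),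
  (2, [74, 64, 98, 99, 86, 112, 123], 1, [(0, [[1, 0, 0, 0, 0, 0, 0]]), (1, [[0, 1, 0, 0, 0, 0, 0]]), (2, [[0, 0, 1, 0, 0, 0, 0]]), (3, [[0, 0, 0, 1, 0, 0, 0]]), (4, [[0, 0, 0, 0, 1, 0, 0]]), (5, [[0, 0, 0, 0, 0, 1, 0]]), (6, [[0, 0, 0, 0, 0, 0, 1]])]),
  (3, [103, 70, 74, 98, 89, 84], 1, [(0, [[1, 0, 0, 0, -1, -1, -1], [0, 0, 0, 1, 0, -1, -1]]), (1, [[0, 1, 0, 1, 1, 0, 0], [0, 0, 0, 0, 1, 0, 0]]), (2, [[0, 0, 1, 1, 1, 1, 1], [0, 0, 0, 0, 0, 1, 1]])]),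
  (4, [87, 68, 68, 101, 74, 113, 115], 1, [(0, [[1, 0, 0, -1, 0, 1, 0], [0, 2, 0, 1, 1, 0, 0]]), (2, [[0, 1, 1, 2, 1, 0, 0], [0, -1, 0, 0, 0, 0, 0]])]),
  (5, [67, 69, 116, 99], 1, [(5, [[2, 2, 4, 4, 3, 1, 2], [1, 1, 1, 0, 0, 0, 0], [0, 0, 1, 1, 1, 0, 1], [2, 2, 3, 2, 1, 0, 1]])]),
  (6, [67, 91, 110, 116, 90, 108, 117], 1, [(0, [[1, 0, 0, 1, 1, 0, -1], [0, 0, 0, -1, -2, 0, 0]]), (1, [[0, 1, 0, 1, 1, 1, 0], [0, 0, 0, 0, -1, -1, 0]]), (2, [[0, 0, 1, 0, 0, 0, 1], [0, 0, 0, 1, 2, 1, 0]])]),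
  (7, [98, 115, 69, 67, 86, 108], 1, [(6, [[1, 1, 1, 2, 1, 1, 1], [1, 1, 0, 1, 0, 0, 0], [1, 1, 0, 0, -1, -1, 0], [2, 2, 2, 2, 1, 0, 0], [1, 2, 2, 2, 1, 0, 0], [1, 1, 2, 2, 1, 0, 0]])]),
  (8, [101, 91, 104, 120, 113], 1, [(1, [[0, 1, 0, 0, 0, 0, 0], [0, 0, 0, -1, -1, -1, 0], [1, 0, 1, 0, 0, 0, 0], [1, 0, 1, 1, 0, 0, 0]])]),
  (9, [92, 89, 93, 115, 114, 103], 1, [(6, [[1, 1, 1, 1, 1, 1, 1], [-1, 0, 0, 0, 0, 0, 0], [1, 0, 1, 0, 0, 0, 0], [-1, -1, -2, -3, -2, -1, 0], [0, 0, 1, 1, 1, 1, 0], [0, -1, -1, -2, -2, -1, 0]])]),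
  (10, [115, 117, 105, 74, 94, 93, 81], 1, [(0, [[1, 1, 2, 2, 2, 1, 0], [0, -1, -1, -1, -1, 0, 1], [0, 1, 0, 1, 1, 0, -1], [0, -1, 0, -1, -1, 0, 0]])]),
  (12, [115, 71, 90, 77, 82, 67, 106], 1, [(0, [[1, 2, 3, 4, 3, 2, 1], [0, -1, -1, -2, -2, -1, -1], [0, 0, -1, 0, 0, 0, 0], [0, 0, 1, 1, 1, 0, 0]])]),
  (14, [72, 81, 71, 99, 107, 115, 85], 1, [(0, [[1, 1, 2, 2, 2, 2, 1], [0, -1, -1, -1, -1, -1, 0], [0, 0, 0, 0, 1, 1, 0], [0, -1, -1, -2, -2, -2, -1], [0, 0, 1, 1, 1, 1, 0], [0, 0, 0, 0, 0, -1, 0]])]),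
  (18, [94, 89, 69, 87, 63, 96, 76], 1, [(0, [[1, 0, 1, 1, 1, 1, 0], [0, 1, 1, 2, 2, 1, 1], [0, 0, -1, -1, -1, 0, 0], [0, 1, 1, 2, 1, 0, 0], [0, 0, 0, -1, -1, 0, 0], [0, -1, 0, 0, 0, 0, 0]])])]

/-- certificates for type E8 -/
def syE8 : List (ℕ × List ℕ × ℤ × List (ℕ × List (List ℤ))) := [
  (1, [], 1, [(0, [[1, 0, 0, 0, 0, 0, 0, 0]]), (1, [[0, 1, 0, 0, 0, 0, 0, 0]]), (2, [[0, 0, 1, 0, 0, 0, 0, 0]]), (3, [[0, 0, 0, 1, 0, 0, 0, 0]]), (4, [[0, 0, 0, 0, 1, 0, 0, 0]]), (5, [[0, 0, 0, 0, 0, 1, 0, 0]]), (6, [[0, 0, 0, 0, 0, 0, 1, 0]]), (7, [[0, 0, 0, 0, 0, 0, 0, 1]])]),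
  (2, [200, 176, 144, 212, 134, 152, 227, 222], 1, [(0, [[1, 0, 0, 0, 0, 0, 0, 0]]), (1, [[0, 1, 0, 0, 0, 0, 0, 0]]), (2, [[0, 0, 1, 0, 0, 0, 0, 0]]), (3, [[0, 0, 0, 1, 0, 0, 0, 0]]), (4, [[0, 0, 0, 0, 1, 0, 0, 0]]), (5, [[0, 0, 0, 0, 0, 1, 0, 0]]), (6, [[0, 0, 0, 0, 0, 0, 1, 0]]), (7, [[0, 0, 0, 0, 0, 0, 0, 1]])]),
  (3, [120, 123, 141, 162, 187, 204, 217, 223], 1, [(0, [[1, 0, 0, 0, -1, 0, 0, 1], [0, 0, 0, 0, -2, -1, 0, 0]]), (1, [[0, 1, 0, 0, 0, -1, -1, -1], [0, 0, 0, 0, 0, -1, -2, -1]]), (2, [[0, 0, 1, 0, 0, 0, 0, -1], [0, 0, 0, 0, 1, 1, 0, -1]]), (3, [[0, 0, 0, 1, 1, 1, 1, 1], [0, 0, 0, 0, 0, 0, 1, 1]])]),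
  (4, [120, 123, 130, 147, 176, 184, 210, 222], 1, [(0, [[1, 0, 0, 0, -1, -1, -2, -1], [0, 0, 0, 0, 0, 2, 1, 1]]), (1, [[0, 1, 0, 0, 1, -1, 0, 0], [0, 0, 0, 0, -1, -2, -3, -1]]), (2, [[0, 0, 1, 0, 1, 1, 2, 1], [0, 0, 0, 0, 1, -1, -1, -1]]), (3, [[0, 0, 0, 1, 0, 1, 0, 0], [0, 0, 0, 0, 0, 1, 2, 1]])]),
  (5, [120, 123, 130, 136, 164, 178, 207, 239], 1, [(0, [[1, 0, 1, 1, 1, 1, 0, -1], [0, 0, 0, -1, -1, 0, -1, -2], [0, 0, -1, -2, -3, -2, -2, -2], [0, 0, -1, -2, -2, -2, -2, -1]]), (1, [[0, 1, 1, 1, 0, 0, 0, 0], [0, 0, 0, -1, -2, -2, -1, 0], [0, 0, 0, -1, -1, -1, 0, 1], [0, 0, 0, 0, 0, 0, 1, 1]])]),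
  (6, [120, 122, 123, 128, 151, 153, 213, 220], 1, [(0, [[1, 0, 0, 0, 1, 1, 0, 1], [0, 0, 0, 0, -2, -1, 0, 0]]), (1, [[0, 1, 0, 0, 0, 0, 1, 0], [0, 0, 0, 0, 0, -1, -2, -1]]), (2, [[0, 0, 1, 0, -1, -1, 0, 0], [0, 0, 0, 0, 1, 1, 0, -1]]), (3, [[0, 0, 0, 1, 1, 1, 0, 0], [0, 0, 0, 0, 0, 0, 1, 1]])]),
  (7, [222, 120, 127, 178, 177, 148, 138, 146], 1, [(7, [[1, 0, 1, 2, 1, 2, 1, 1], [-1, -1, -2, -2, -2, -1, 0, 0], [0, -1, 0, 0, 0, 1, 0, 0], [-1, -2, -3, -3, -3, -2, -1, 0], [1, 1, 2, 3, 2, 2, 1, 0], [-1, -3, -3, -4, -4, -2, -1, 0]])]),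
  (8, [197, 142, 134, 144, 188, 136, 238, 120], 1, [(5, [[2, 1, 2, 1, 2, 1, 0, -1], [2, 0, 2, 2, 2, 0, 0, -1], [2, 2, 3, 5, 3, 0, 0, 0], [0, 1, 0, 3, 1, 0, 0, 0]]), (6, [[-2, 0, -1, 1, -1, 0, 1, 2], [-3, 0, -3, -3, -3, 0, 0, 1], [-3, -3, -4, -7, -4, 0, 0, 0], [0, -1, 0, -4, -1, 0, 0, 0]])]),
  (9, [171, 209, 188, 128, 156, 197, 211], 3, [(7, [[4, 4, 7, 8, 6, 5, 5, 3], [-2, -2, -2, -1, 0, -1, -1, 0], [1, 1, 1, 2, 0, 2, 2, 0], [-1, -4, -4, -8, -6, -5, -2, 0], [2, 2, 5, 7, 6, 4, 1, 0], [-1, -1, -1, -2, -3, -2, 1, 0]])]),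
  (10, [176, 127, 173, 231, 123, 218, 153, 192], 1, [(0, [[1, 0, 1, 0, 0, 0, 0, 0], [0, 1, 1, 3, 3, 2, 1, 0], [0, 0, -1, -2, -2, -1, 0, 0], [0, -1, 0, 0, 0, 0, 0, 0]]), (7, [[0, 2, 1, 3, 3, 3, 2, 1], [0, -2, -1, -4, -4, -3, -1, 0], [0, 1, 2, 4, 4, 3, 1, 0], [0, 1, 0, 0, -1, -1, 0, 0]])]),
  (12, [237, 172, 226, 192, 210, 162, 167, 231], 1, [(0, [[1, -1, 0, -2, -2, -1, -1, -1], [0, 0, 0, 0, 0, -1, -2, -2], [0, 0, 0, 1, 2, 1, 0, 1], [0, -1, 0, 0, 1, 1, 2, 1]]), (2, [[0, 2, 1, 3, 3, 2, 1, 1], [0, -1, 0, -1, -1, 0, 1, 1], [0, 0, 0, 0, -1, -1, 0, -1], [0, 1, 0, 0, 0, 0, -1, 0]])]),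
  (14, [170, 157, 189, 219, 209, 237, 164, 223], 1, [(0, [[1, 1, 1, 2, 1, 0, 0, 1], [0, 0, 0, 1, 1, 1, 1, 0], [0, 0, -1, -1, -1, -2, -1, 0], [0, -1, -1, -1, -1, 0, 0, -1], [0, 1, 0, 1, 1, 0, 0, 0], [0, -1, -1, -2, -1, 0, 0, -1]])]),
  (15, [210, 169, 141, 178, 143, 162, 201, 177], 1, [(7, [[2, 3, 5, 8, 6, 4, 3, 1], [1, 1, 2, 1, 1, 1, 0, 0], [0, 0, -1, -2, -2, -1, -1, 0], [0, 0, 0, 1, 1, 1, 1, 0], [-1, -1, -2, -3, -2, -1, -1, 0], [0, 1, 1, 3, 2, 1, 1, 0], [1, 1, 3, 4, 3, 2, 1, 0], [1, 1, 1, 0, 0, 0, -1, 0]])]),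
  (18, [203, 143, 185, 189, 173, 230, 154], 1, [(7, [[0, 1, 0, 1, 1, 1, 1, 1], [0, -1, 0, -1, 0, 0, 0, 0], [0, 1, 1, 2, 1, 1, 1, 0], [1, 0, 1, 0, 0, 0, 0, 0], [1, 2, 2, 4, 3, 2, 1, 0], [-1, -2, -3, -4, -3, -2, -1, 0]])]),
  (20, [159, 120, 148, 184, 183, 123, 211, 174], 1, [(7, [[0, 0, 1, 1, 1, 2, 2, 1], [1, 2, 2, 3, 2, 0, 0, 0], [0, 0, 0, 0, 0, 0, -1, 0], [0, 0, 0, 0, 1, 1, 1, 0], [0, -1, 0, -1, -1, 0, 0, 0], [0, 0, 0, 0, 0, -1, 0, 0], [1, 1, 1, 2, 1, 0, -1, 0], [-1, -1, -1, -1, 0, 1, 1, 0]])]),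
  (24, [226, 173, 228, 190, 127, 207, 148, 231], 3, [(7, [[3, 5, 6, 9, 7, 6, 5, 3], [-2, -1, -1, -2, -1, 0, 0, 0], [-1, -3, -2, -4, -4, -3, -1, 0], [2, 2, 4, 5, 3, 3, 1, 0], [0, -1, 0, 0, 1, 0, -1, 0], [1, 2, 2, 4, 2, 0, 0, 0], [-1, 0, -2, -1, -1, 0, -1, 0], [-1, -1, -2, -4, -3, -3, -2, 0]])]),
  (30, [149, 132, 212, 170, 200, 208, 197, 154], 1, [(0, [[1, 1, 2, 0, -2, -2, -2, -1], [0, -1, -1, -3, -3, -3, -1, 1], [0, 0, 1, 3, 4, 3, 2, 1], [0, 0, 1, 2, 2, 2, 1, 0], [0, 0, 0, 1, 2, 2, 2, 1], [0, 0, 0, 2, 3, 3, 2, 0], [0, 0, 0, -2, -3, -2, -2, -2], [0, -1, -2, -5, -5, -4, -2, 0]])])]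

end Cfsg.Agent.H14
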