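import Cfsg.Agent.H14.Tor4

/-! A cyclic torus of the triality group. -/

set_option autoImplicit false

namespace Cfsg.Agent.H14

open Cfsg.Lie Cfsg.Lie.ChevalleyDatum Finset H15

lemma d4_add {A : Type*} [AddCommGroup A] (n : ℕ) (c0 c1 c2 c3 : A) :
    (n • c3 = c0 ∧ n • c1 + (n • c2 + (n • c0 + (-(2 • n • c1) + n • c3))) = c1 ∧ n • c0 = c2 ∧ n • c2 = c3) ↔
      ∃ a, (((n : ℤ) ^ 3 - 1) * (n + 1)) • a = 0 ∧ c0 = (n + 1 : ℤ) • a ∧ c1 = (n ^ 2 + n + 1 : ℤ) • a ∧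
        c2 = (n ^ 2 + n : ℤ) • a ∧ c3 = (n ^ 3 + n ^ 2 : ℤ) • a := by
  simp only [← natCast_zsmul _ n]
  generalize (n : ℤ) = q
  constructor
  · rintro ⟨h0, h1, rfl, rfl⟩
    have h2 : c0 = (q + 1) • (c1 - q • c0) := by linear_combination (norm := module) h1 - h0
    refine ⟨c1 - q • c0, ?_, h2, ?_, ?_, ?_⟩
    · linear_combination (norm := module) h0 - (q ^ 3 - 1) • h2
    · linear_combination (norm := module) q • h2
    · linear_combination (norm := module) q • h2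
    · linear_combination (norm := module) q ^ 2 • h2
  · rintro ⟨a, h, rfl, rfl, rfl, rfl⟩
    refine ⟨?_, ?_, by module, by module⟩
    · linear_combination (norm := module) h
    · linear_combination (norm := module) h

lemma d4_fix {A : Type*} [CommGroup A] (q : ℕ) (c : Fin 4 → A) :
    (fun i => c (τ4.symm i) ^ q) * Pi.mulSingle 1 (∏ i, (c (τ4.symm i) ^ q) ^ carD4 i 1)⁻¹ = c ↔
      ∃ a : A, a ^ (((q : ℤ) ^ 3 - 1) * (q + 1)) = 1 ∧ c = fun i => a ^ (![q + 1, q ^ 2 + q + 1, q ^ 2 + q, q ^ 3 + q ^ 2] i : ℤ) := by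
  simp only [funext_iff, Fin.forall_fin_succ, Fin.prod_univ_four]
  simpa [τ4, carD4] using! d4_add (A := Additive A) q (c 0) (c 1) (c 2) (c 3)

theorem _root_.Cfsg.Agent.H15.IsD4.Fix_le_T {K : Type*} [Field K] [Fintype K] {q : ℕ} {S : TwO (X4 K) (Fin 2)}
    (h : IsD4 S q) : S.Fix ≤ S.T := fun g hg => by
  obtain ⟨u, hu, h1, n, hn, h2, w, hw, v, hv, h3, rfl⟩ := S.exists_normal_form hg
  obtain ⟨m, hm, h4⟩ := S.exists_rep_T (S.ws_of_rep h2 hw)
  have h5 := S.closure_le hm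
  have h6 := (S.H_inf_Fix tor4_single tor4_range (k := 3) (d := 2) (by decide) (fun c => by
    ext j
    simp only [Function.iterate_succ_apply', Function.iterate_zero_apply, Tw.σC, MonoidHom.mk'_apply, Units.coe_map,
      MonoidHom.coe_coe, h.gg, h.τ]
    rw [(by decide : ∀ j, τ4.symm (τ4.symm (τ4.symm j)) = j) j]) fun z hz => funext (ker_D4 (mem_tor4_ker.1 hz)).1).le
    ⟨(X4 K).inv_mul_mem_H h5.1 hn h4 hw, S.Fix.mul_mem (S.Fix.inv_mem (S.T_le_Fix h5.2)) h2⟩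
  exact mul_mem (mul_mem (S.U_le_T hu h1) (by simpa using mul_mem h5.2 (h.H_eq.ge h6).2))
    (S.U_le_T ((X4 K).Uw_le_U w hv) h3)

lemma tau4_spec (i : Fin 4) : morD4a.ρ (chevD4.simple i) = chevD4.simple (τ4 i) ∧ morD4a.ε (chevD4.simple i) = 1 :=
  ⟨(morD4a_simple i i.2).1.trans (congrArg _ ((by decide : ∀ i : Fin 4, [2, 1, 3, 0].getD i 0 = (τ4 i : ℕ)) i)),
    (morD4a_simple i i.2).2⟩

lemma d4_ker {F : Type*} [Field F] (φ : F →+* F) {z : chevD4.SteinbergGroup F} (h : thetaSt goodD4 F stD4 z = 1) :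
    z * z = 1 ∧ z * twS goodD4 stD4 morD4a φ z * twS goodD4 stD4 morD4a φ (twS goodD4 stD4 morD4a φ z) = 1 := by
  rw [← MonoidHom.mem_ker, thetaSt_ker, center_eq_map (rgSt_grp goodD4 F stD4) (rgSt_hmul goodD4 F stD4) (piSt_hom goodD4 F stD4)] at h
  obtain ⟨c, hc, e⟩ := h
  obtain rfl : torS goodD4 stD4 F c = z := e
  obtain ⟨h1, h2, h3⟩ := ker_D4 (mem_tor4_ker.1 hc)
  have a : ∀ i, Units.map (φ : F →* F) (c i) = c i := fun i => Units.ext (by
    rcases sq_eq_one_iff.1 (congrArg Units.val (h1 i)) with h | h <;> simp [h])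
  simp only [twS_torS goodD4 stD4 morD4a_e (τ := τ4) tau4_spec, a, ← map_mul]
  refine ⟨(congrArg _ (funext fun i => (pow_two _).symm.trans (h1 i))).trans (map_one _),
    (congrArg _ (funext fun i : Fin 4 => ?_)).trans (map_one _)⟩
  fin_cases i
  · exact (mul_right_comm _ _ _).trans h3
  · exact (by rw [h2]; simp : c (1 : Fin 4) * c (1 : Fin 4) * c (1 : Fin 4) = 1)
  · exact (congrArg (· * _) (mul_comm _ _)).trans h3
  · exact (by rw [← h3]; ac_rfl : c (3 : Fin 4) * c (2 : Fin 4) * c (0 : Fin 4) = 1)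

universe u in
theorem exists_tw_torus {D : ChevalleyDatum} (G : Good D) (hs : StData D) {N : Morph D D 1} (he : ∀ r, N.e r = 1)
    {τ : Equiv.Perm (Fin D.rank)} (hτ : ∀ i : Fin D.rank, N.ρ (D.simple i) = D.simple (τ i) ∧ N.ε (D.simple i) = 1)
    {F : Type u} [Field F] [Fintype F] {q k : ℕ} (hq : IsPrimePow q) (hF : Fintype.card F = q ^ k) (hk0 : 0 < k) (h4 : τ ^ k = 1)
    (hi : ∀ (K : Type u) [Field K], Function.Injective (torS G hs K)) (i₀ : Fin D.rank) {M : ℕ} (hM : (q : ℤ) ∣ M + 1)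
    {e v : Fin D.rank → ℤ} (hfix : ∀ (A : Type u) [CommGroup A] (c : Fin D.rank → A), (fun i => c (τ.symm i) ^ q) *
      Pi.mulSingle i₀ (∏ i, (c (τ.symm i) ^ q) ^ G.R.car i i₀)⁻¹ = c ↔ ∃ a : A, a ^ (M : ℤ) = 1 ∧ c = fun i => a ^ e i)
    (hv : ∑ i, v i * e i = 1) {g : Fin D.nroots → ℤ} (hg : ∀ r, g r = ∑ i, G.R.pair (G.R.simple i) r * e i)
    (r1 : ∀ r, ¬ (M : ℤ) ∣ g r) (r2 : ∀ w ∈ G.R.W, (∀ r, (M : ℤ) ∣ g (w r) - g r) → w = 1) {φ₀ : F →+* F}
    (h0 : ∀ t, φ₀ t = t ^ q) : ∃ t, twS G hs N φ₀ t = t ∧ orderOf t = M ∧ ∀ y, twS G hs N φ₀ y = y →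
      Commute (thetaSt G F hs t) (thetaSt G F hs y) → y ∈ Subgroup.zpowers t := by
  obtain ⟨K, _, _, _, T, hT⟩ := exists_bigField F (Fin D.nroots ⊕ Fin D.rank)
  obtain ⟨φ, hφ, hq0⟩ : ∃ φ : K →+* K, (∀ t, φ t = t ^ q) ∧ (q : K) = 0 := by
    obtain ⟨p, j, hp, hk, rfl⟩ := (isPrimePow_nat_iff q).1 hq
    have := Fact.mk hp
    have : CharP F p := charP_of_card_eq_prime_pow (hF.trans (pow_mul p j k).symm)
    have := charP_of_injective_algebraMap (algebraMap F K).injective p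
    exact ⟨iterateFrobenius K p j, fun t => rfl, by simp [hk.ne']⟩
  have h3 : ∀ t, (φ ^ k) t = t ^ Fintype.card F := fun t => by
    rw [hF]; clear hF h4 hk0
    induction k with
    | zero => simp
    | succ k ih => rw [pow_succ', RingHom.mul_def, RingHom.comp_apply, ih, hφ, pow_succ, pow_mul]
  replace hi := hi K
  obtain ⟨n, hn⟩ := exists_lang_tw G hs he hτ F hi h4 h3 hk0 (by simp [hφ]) hT ((rgSt G F hs).nw [i₀])
  have hj := stMap_injective G hs hi (algebraMap F K)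
  have : NeZero (M : K) := ⟨fun h => by
    obtain ⟨c, hc⟩ := hM
    simpa [h, hq0] using congrArg (Int.cast : ℤ → K) hc⟩
  have hM0 : M ≠ 0 := by rintro rfl; simpa using this.ne
  have := NeZero.mk hM0
  obtain ⟨z, hz⟩ := HasEnoughRootsOfUnity.exists_primitiveRoot K M
  lift z to Kˣ using hz.isUnit hM0
  rw [IsPrimitiveRoot.coe_units_iff] at hz
  have a1 : ∀ c, (∃ y, twS G hs N φ₀ y = y ∧ stMap G hs (algebraMap F K) y = n * torS G hs K c * n⁻¹) ↔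
      ∃ a : Kˣ, a ^ M = 1 ∧ c = fun i => a ^ e i := fun c => by
    rw [stMap_nw, inv_mul_eq_iff_eq_mul, RG0.nw_cons, RG0.nw_nil, mul_one] at hn
    rw [← twS_fix_iff G hs he hτ F hi h4 h3 (by simp [h0, hφ]), map_mul, map_mul, map_inv,
      twS_torS G hs he hτ, hn, show ∀ a b x : D.SteinbergGroup K,
      a * b * x * (a * b)⁻¹ = a * (b * x * b⁻¹) * a⁻¹ by intros; group, RG.n_conj_torX, mul_left_inj, mul_right_inj, hi.eq_iff]
    simp only [← zpow_natCast _ M, ← hfix, RS.chi, RS.pair_simple_simple,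
      show ∀ u : Kˣ, Units.map (φ : K →* K) u = u ^ q from fun u => Units.ext (hφ u)]
  obtain ⟨c₀, hc₀⟩ : ∃ c₀ : Fin D.rank → Kˣ, c₀ = fun i => z ^ e i := ⟨_, rfl⟩
  obtain ⟨t, ht', ht⟩ := (a1 c₀).2 ⟨z, hz.pow_eq_one, hc₀⟩
  have a2 : ∀ r, G.R.chi c₀ r = z ^ g r := fun r => by simp [RS.chi, hc₀, hg, zpow_sum', ← zpow_mul, mul_comm]
  refine ⟨t, ht', ?_, fun y hy' hy => ?_⟩
  · rw [← orderOf_injective _ hj, ht, ← MulAut.conj_apply, MulEquiv.orderOf_eq, orderOf_injective _ hi, hz.eq_orderOf,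
      orderOf_eq_orderOf_iff]
    refine fun k => ⟨fun hk => ?_, fun hk => funext fun i => by
      rw [hc₀, Pi.pow_apply, ← zpow_natCast, ← zpow_mul, mul_comm, zpow_mul, zpow_natCast, hk, one_zpow, Pi.one_apply]⟩
    have := wt_pow c₀ k v
    rw [hk, hc₀, wt_zpow, hv] at this
    simpa [wt_apply, ← ofMul_pow] using this.symm
  obtain ⟨ψ, -, e⟩ := exists_adMap_theta G hs (algebraMap F K)
  have b1 : Commute ((G.rgD K).torX (G.rgD_hmul K) c₀) (thetaSt G K hs (n⁻¹ * stMap G hs (algebraMap F K) y * n)) := by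
    have := (hy.map ψ).map (MulAut.conj (thetaSt G K hs n)⁻¹)
    rw [e, e, ht] at this
    simpa [mul_assoc, theta_torS] using this
  obtain ⟨u, w, hw, c, u', b2, b3⟩ := (G.rgD K).exists_nf (G.rgD_hmul K)
    (G.rgD_top K ▸ Subgroup.mem_top (thetaSt G K hs (n⁻¹ * stMap G hs (algebraMap F K) y * n)))
  obtain ⟨b4, b5⟩ := (G.rgD K).commute_nf _ hw b2 (b3 ▸ b1)
  obtain rfl := r2 w hw fun r => (hz.zpow_eq_one_iff_dvd _).1 (by
    rw [zpow_sub, ← a2, ← a2, (G.rgD K).chi_rep _ ((G.rgD K).rep_nW hw) (c' := c₀) (by rw [← b4.eq]; group), mul_inv_cancel])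
  have b6 : ∀ r, G.R.chi c₀ r ≠ 1 := fun r hr => r1 r ((hz.zpow_eq_one_iff_dvd _).1 (a2 r ▸ hr))
  obtain ⟨c₁, b7⟩ := exists_torS_of_theta G hs (b3 ▸ mul_mem (mul_mem (mul_mem
    ((G.rgD K).uu_mem fun r hr h => absurd (b5 r hr (b6 r)).1 h) ((G.rgD K).nw_mem_H fun i => by
      rw [G.R.wp_word hw]; exact G.R.pos_simple i)) ((G.rgD K).torX_mem_H _ c))
    ((G.rgD K).uu_mem fun r hr h => absurd (b5 r hr (b6 r)).2 h) : thetaSt G K hs _ ∈ (G.rgD K).H)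
  obtain ⟨a, b8, rfl⟩ := (a1 c₁).1 ⟨y, hy', by rw [b7]; group⟩
  obtain ⟨k, -, rfl⟩ := hz.eq_pow_of_mem_rootsOfUnity ((mem_rootsOfUnity _ _).2 b8)
  refine ⟨k, hj ?_⟩
  simp only [zpow_natCast, map_pow, ht, conj_pow]
  rw [← map_pow, show c₀ ^ k = _ from funext fun i => by
    rw [hc₀, Pi.pow_apply, ← zpow_natCast, ← zpow_mul, mul_comm, zpow_mul, zpow_natCast], b7]
  group

theorem d4_torus {F : Type*} [Field F] [Fintype F] {q : ℕ} (hq : IsPrimePow q) (hF : Fintype.card F = q ^ 3) :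
    ∃ H : Subgroup (twistedD4 F q), IsCyclic H ∧ Nat.card H = (q ^ 3 - 1) * (q + 1) ∧
      Subgroup.centralizer (H : Set (twistedD4 F q)) = H := by
  obtain ⟨S, h⟩ := exists_D4 hq hF
  obtain ⟨φ₀, h0⟩ := exists_frob hq three_ne_zero hF
  obtain ⟨M, hM⟩ : ∃ M, M = (q ^ 3 - 1) * (q + 1) := ⟨_, rfl⟩
  have h1 := h.hq
  have hM' : (M : ℤ) = (q ^ 3 - 1) * (q + 1) := by rw [hM]; push_cast [Nat.cast_sub (Nat.one_le_pow 3 q (by omega))]; rfl
  have he : ∀ i : Fin 4, evP 4 (ent [[1, 1], [1, 1, 1], [0, 1, 1], [0, 0, 1, 1]] i) q =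
      (![q + 1, q ^ 2 + q + 1, q ^ 2 + q, q ^ 3 + q ^ 2] i : ℤ) := fun i => by
    fin_cases i <;> simp [evP, sum_range_succ, ent] <;> ring
  obtain ⟨r1, r2⟩ := reg_of_chk goodD4 bridgeD4 [[0, 1, -1, 0], [1, -1, 1, 0], [-1, 1, 0, 0], [1, -1, 0, 1]]
    [[1, 1], [1, 1, 1], [0, 1, 1], [0, 0, 1, 1]] [-1, -1, 0, 1, 1] [12, 13, 18] (by decide +kernel) (by decide +kernel)
    (by decide +kernel) (q := q) (M := M) (d := 4) h1 rfl (by simp [evP, sum_range_succ, hM']; ring)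
    (fun n => by
      simp only [evP, sum_range_succ]; simp
      nlinarith [pow_nonneg (Nat.cast_nonneg (α := ℤ) n) 3, pow_nonneg (Nat.cast_nonneg (α := ℤ) n) 4]) fun _ => rfl
  obtain ⟨t, ht', a3, a4⟩ := exists_tw_torus goodD4 stD4 morD4a_e tau4_spec hq hF three_pos (by decide : τ4 ^ 3 = 1)
    torS_injective_D4 (1 : Fin 4) (M := M) ⟨q ^ 3 + q ^ 2 - 1, by rw [hM']; ring⟩ (v := (![-q, 1, 0, 0] : Fin 4 → ℤ))
    (fun A _ c => by
      rw [car_eqD4, hM']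
      exact (d4_fix q c).trans (exists_congr fun a => and_congr Iff.rfl
        (Eq.congr_right (funext fun i => congrArg _ (he i).symm))))
    ((sum_congr rfl fun i _ => congrArg _ (he i)).trans ((Fin.sum_univ_four _).trans (by simp; ring))) (fun _ => rfl) r1 r2 h0
  have a5 := s_theta goodD4 stD4 morD4a_e tau4_spec φ₀ S.toTw h.τ fun i t => (h.g i t).trans (h0 t).symm
  have a6 : (thetaSt goodD4 F stD4 t).1 ∈ twistedD4 F q :=
    h.T_eq.le (h.Fix_le_T ⟨(goodD4.grp_eq F).le (thetaSt goodD4 F stD4 t).2, by rw [a5, ht']⟩)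
  refine ⟨Subgroup.zpowers ⟨_, a6⟩, inferInstance, ?_, le_antisymm (fun x hx => ?_) (Subgroup.le_centralizer _)⟩
  · rw [Nat.card_zpowers, Subgroup.orderOf_mk, Subgroup.orderOf_coe, ← hM, ← a3, orderOf_eq_orderOf_iff]
    refine fun k => ⟨fun hk => ?_, fun hk => by rw [← map_pow, hk, map_one]⟩
    obtain ⟨b1, b2⟩ := d4_ker φ₀ ((map_pow _ _ _).trans hk)
    rwa [map_pow, ht', map_pow, ht', b1, one_mul] at b2
  · have b0 := S.T_le_Fix (h.T_eq.ge x.2)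
    obtain ⟨y, hy⟩ := thetaSt_surjective goodD4 stD4 ⟨x, (goodD4.grp_eq F).ge b0.1⟩
    have b1 : thetaSt goodD4 F stD4 (y⁻¹ * twS goodD4 stD4 morD4a φ₀ y) = 1 := by
      rw [map_mul, map_inv, inv_mul_eq_one]
      exact Subtype.ext (by rw [← a5, hy]; exact b0.2.symm)
    generalize hζ : y⁻¹ * twS goodD4 stD4 morD4a φ₀ y = ζ at b1
    have b2 : thetaSt goodD4 F stD4 (twS goodD4 stD4 morD4a φ₀ ζ) = 1 := Subtype.ext (by rw [← a5, b1]; exact S.s_one)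
    obtain ⟨k, hk⟩ := a4 (y * twS goodD4 stD4 morD4a φ₀ ζ) (by
      have b3 := (d4_ker φ₀ b1).2
      rw [Subgroup.mem_center_iff.1 ((thetaSt_ker goodD4 stD4).le b2), mul_assoc, mul_eq_one_iff_inv_eq,
        inv_eq_of_mul_eq_one_right (d4_ker φ₀ b2).1] at b3
      rw [map_mul, ← mul_inv_cancel_left y (twS _ _ _ φ₀ y), hζ, mul_assoc, ← b3]) (by
        rw [map_mul, b2, mul_one, hy]
        have := congrArg Subtype.val (hx _ (Subgroup.mem_zpowers _))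
        exact Subtype.ext this)
    refine ⟨k, Subtype.ext ?_⟩
    have := congrArg (fun y => (thetaSt goodD4 F stD4 y).1) hk
    simp only [map_zpow, map_mul, b2, mul_one, hy] at this
    exact this

end Cfsg.Agent.H14
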